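import Cfsg.Agent.Order175560.Data
import Cfsg.Agent.S0494
import Cfsg.Prelude.Def_SporadicB

/-! In a simple group of order 175560 the centralizer of an involution is `2 × A₅`. -/

set_option autoImplicit false
set_option linter.unusedSectionVars false
set_option linter.style.haveILetI false

open Subgroup Cfsg.Agent.SmallGroups

namespace Cfsg.Agent.Order175560

local instance : Fact (Nat.Prime 2) := ⟨Nat.prime_two⟩
local instance : Fact (Nat.Prime 3) := ⟨Nat.prime_three⟩
local instance : Fact (Nat.Prime 5) := ⟨by norm_num⟩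

variable {G : Type*} [Group G] [Finite G] [IsSimpleGroup G]

/-- No element of order five commutes with an element of order three and an involution that
commute. -/
theorem no_fifteen (hd : Nat.card G = 175560) {f : ℕ → ℕ × ℕ × ℕ} (D : Data G f) {t x y : G}
    (ht : orderOf t = 2) (hx : orderOf x = 3) (hy : orderOf y = 5) (htx : Commute t x)
    (hty : Commute t y) (hxy : Commute x y) : False := by
  classical
  obtain ⟨-, -, -, hn, hI⟩ := forced hd D ht
  obtain ⟨P, hP'⟩ := (IsPGroup.of_card (p := 5) (n := 1) (by rw [Nat.card_zpowers, hy, pow_one]) :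
    IsPGroup 5 ↥(zpowers y)).exists_le_sylow
  have m5 : (5 : ℕ) ∈ five := by decide
  have hPy := zpowers_eq_sylow (D.sylow 5 m5) hy P (hP' (mem_zpowers y))
  have hC : ∀ z : G, Commute z y → z ∈ centralizer ((P : Subgroup G) : Set G) := by
    intro z hz w hw
    rw [SetLike.mem_coe, hPy, mem_zpowers_iff] at hw
    obtain ⟨i, rfl⟩ := hw
    exact (hz.symm.zpow_left i).eq
  have hpair := card_pair_set D m5 (show (3 : ℕ) ∈ five by decide) (by norm_num) P
  rw [hI, hn] at hpair
  set X := {k : G | k ∈ centralizer ((P : Subgroup G) : Set G) ∧ ¬ 5 ∣ orderOf k ∧ 3 ∣ orderOf k}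
  have hX : X.ncard = 2 := by omega
  have hx2 : orderOf (x ^ 2) = 3 := by rw [orderOf_pow, hx]; norm_num
  have h6 : orderOf (t * x) = 6 := by
    rw [htx.orderOf_mul_eq_mul_orderOf_of_coprime (by rw [ht, hx]; norm_num), ht, hx]
  have m1 : x ∈ X := ⟨hC x hxy, by rw [hx]; norm_num, by rw [hx]⟩
  have m2 : x ^ 2 ∈ X := ⟨hC _ (hxy.pow_left 2), by rw [hx2]; norm_num, by rw [hx2]⟩
  have m3 : t * x ∈ X :=
    ⟨hC _ (hty.mul_left hxy), by rw [h6]; norm_num, by rw [h6]; norm_num⟩
  have hne1 : x ≠ x ^ 2 := fun h => by
    rw [pow_two] at h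
    have hx1 : x = 1 := left_eq_mul.1 h
    rw [hx1, orderOf_one] at hx
    norm_num at hx
  have hne2 : t * x ≠ x := fun h => by rw [h, hx] at h6; norm_num at h6
  have hne3 : t * x ≠ x ^ 2 := fun h => by rw [h, hx2] at h6; norm_num at h6
  have h3 : ({x, x ^ 2, t * x} : Set G).ncard = 3 := by
    rw [Set.ncard_eq_three]
    exact ⟨x, x ^ 2, t * x, hne1, hne2.symm, hne3.symm, rfl⟩
  have hle := Set.ncard_le_ncard (show ({x, x ^ 2, t * x} : Set G) ⊆ X by
    simp [Set.insert_subset_iff, m1, m2, m3]) (Set.toFinite X)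
  omega

/-- An element of order three of a group normalizing a group of order five centralizes it. -/
theorem commute_of_normalizes {H : Type*} [Group H] [Finite H] {x y : H} {p q : ℕ}
    [Fact p.Prime] [Fact q.Prime] (hx : orderOf x = p) (hy : orderOf y = q)
    (hco : ¬ p ∣ q - 1) (hn : x ∈ normalizer ((zpowers y : Subgroup H) : Set H)) :
    Commute x y := by
  set P := zpowers y
  have hc : IsCyclic P := inferInstance
  have hdvd := relIndex_centralizer_dvd P
  rw [hc.card_mulAut, Nat.card_zpowers, hy, Nat.totient_prime Fact.out] at hdvd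
  let x' : ↥(normalizer (P : Set H)) := ⟨x, hn⟩
  set C := (centralizer (P : Set H)).subgroupOf (normalizer (P : Set H))
  haveI : C.Normal := by
    have := P.normalizerMonoidHom_ker
    rw [show C = P.normalizerMonoidHom.ker from this.symm]
    infer_instance
  have h1 : orderOf (QuotientGroup.mk' C x') ∣ Nat.gcd p (q - 1) := by
    refine Nat.dvd_gcd ((orderOf_map_dvd _ x').trans (by rw [← Subgroup.orderOf_coe, hx])) ?_
    refine (_root_.orderOf_dvd_natCard _).trans ?_
    rw [← Subgroup.index_eq_card]
    exact hdvd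
  have hg : Nat.gcd p (q - 1) = 1 := (Fact.out : p.Prime).coprime_iff_not_dvd.2 hco
  rw [hg, Nat.dvd_one, orderOf_eq_one_iff, QuotientGroup.mk'_apply,
    QuotientGroup.eq_one_iff] at h1
  exact (h1 y (mem_zpowers y)).symm

/-- A group of order 60 without elements of order 15, in which elements of order five are
centralized only by their powers, is simple. -/
theorem isSimple_sixty {M : Type*} [Group M] [Finite M] (h60 : Nat.card M = 60)
    (h15 : ∀ x y : M, orderOf x = 3 → orderOf y = 5 → ¬ Commute x y)
    (hC5 : ∀ y z : M, orderOf y = 5 → Commute y z → z ^ 2 = 1 → z = 1) : IsSimpleGroup M := by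
  classical
  haveI : Nontrivial M := Finite.one_lt_card_iff_nontrivial.1 (by rw [h60]; norm_num)
  obtain ⟨y, hy⟩ := exists_prime_orderOf_dvd_card' (G := M) 5 (by rw [h60]; norm_num)
  have hS5 : ∀ R : Sylow 5 M, Nat.card ↥(R : Subgroup M) = 5 := fun R =>
    (card_sylow_subgroup (a := 1) (m := 12) (by rw [h60]; norm_num) (by norm_num) R).trans
      (pow_one 5)
  have hn5 : Nat.card (Sylow 5 M) = 6 := by
    have hd := card_sylow_dvd (G := M) (p := 5) (a := 1) (m := 12) (by rw [h60]; norm_num)
    have hmod := card_sylow_modEq_one 5 M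
    obtain ⟨x, hx⟩ := exists_prime_orderOf_dvd_card' (G := M) 3 (by rw [h60]; norm_num)
    have hne : Nat.card (Sylow 5 M) ≠ 1 := by
      intro h1
      haveI := (Nat.card_eq_one_iff_unique.1 h1).1
      obtain ⟨R, hR⟩ := (IsPGroup.of_card (p := 5) (n := 1)
        (by rw [Nat.card_zpowers, hy, pow_one]) : IsPGroup 5 ↥(zpowers y)).exists_le_sylow
      have hRy : (R : Subgroup M) = zpowers y :=
        (eq_of_le_of_card_ge hR (by rw [hS5 R, Nat.card_zpowers, hy])).symm
      have hn : (R : Subgroup M).Normal := Sylow.normal_of_subsingleton R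
      refine h15 x y hx hy (commute_of_normalizes hx hy (by norm_num) ?_)
      rw [← hRy, normalizer_eq_top]
      exact mem_top x
    have hle := Nat.le_of_dvd (by norm_num) hd
    unfold Nat.ModEq at hmod
    generalize Nat.card (Sylow 5 M) = n at *
    interval_cases n <;> omega
  refine ⟨fun N hN => ?_⟩
  haveI := hN
  have hNd : Nat.card N ∣ 60 := h60 ▸ card_subgroup_dvd_card N
  by_cases h5 : 5 ∣ Nat.card N
  · -- every element of order five lies in `N`
    right
    have hmem5 : ∀ g : M, orderOf g = 5 → g ∈ N := by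
      intro g hg
      obtain ⟨z, hz⟩ := exists_prime_orderOf_dvd_card' (G := N) 5 h5
      obtain ⟨R, hR⟩ := (IsPGroup.of_card (p := 5) (n := 1)
        (by rw [Nat.card_zpowers, hg, pow_one]) : IsPGroup 5 ↥(zpowers g)).exists_le_sylow
      obtain ⟨T, hT⟩ := (IsPGroup.of_card (p := 5) (n := 1)
        (by rw [Nat.card_zpowers, orderOf_coe, hz, pow_one]) :
          IsPGroup 5 ↥(zpowers (z : M))).exists_le_sylow
      have hTz : (T : Subgroup M) = zpowers (z : M) :=
        (eq_of_le_of_card_ge hT (by rw [hS5 T, Nat.card_zpowers, orderOf_coe, hz])).symm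
      obtain ⟨a, ha⟩ := MulAction.exists_smul_eq M T R
      have hgR : g ∈ ((a • T : Sylow 5 M) : Subgroup M) := by rw [ha]; exact hR (mem_zpowers g)
      obtain ⟨w, hw, hwg⟩ := hgR
      have hwg' : a * w * a⁻¹ = g := hwg
      have hwN : w ∈ N := by
        rw [SetLike.mem_coe, hTz] at hw
        exact zpowers_le.2 z.2 hw
      exact hwg' ▸ hN.conj_mem w hwN a
    have h24 : 24 ≤ Nat.card {g : N // orderOf g = 5} := by
      have he : Nat.card {g : M // orderOf g = 5} ≤ Nat.card {g : N // orderOf g = 5} :=
        Nat.card_le_card_of_injective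
          (fun g => ⟨⟨g.1, hmem5 g.1 g.2⟩, by rw [← Subgroup.orderOf_coe]; exact g.2⟩)
          fun a b h => Subtype.ext (congrArg (fun z : {g : N // orderOf g = 5} => (z.1 : M)) h)
      rw [card_orderOf_eq_prime hS5, hn5] at he
      exact he
    have h24' : 24 ≤ Nat.card N :=
      h24.trans (Nat.card_le_card_of_injective _ Subtype.val_injective)
    rcases (show Nat.card N = 30 ∨ Nat.card N = 60 by
      obtain ⟨j, hj⟩ := hNd
      have : j ≤ 2 := by nlinarith
      interval_cases j <;> omega) with h30 | h60'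
    · exfalso
      have hS3 : ∀ R : Sylow 3 N, Nat.card ↥(R : Subgroup N) = 3 := fun R =>
        (card_sylow_subgroup (a := 1) (m := 10) (by rw [h30]; norm_num) (by norm_num) R).trans
          (pow_one 3)
      have hd := card_sylow_dvd (G := N) (p := 3) (a := 1) (m := 10) (by rw [h30]; norm_num)
      have hmod := card_sylow_modEq_one 3 N
      have hone : Nat.card (Sylow 3 N) = 1 := by
        have hdisj : Nat.card {g : N // orderOf g = 3} + Nat.card {g : N // orderOf g = 5} ≤
            Nat.card N := by
          rw [← Nat.card_sum]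
          refine Nat.card_le_card_of_injective (Sum.elim Subtype.val Subtype.val) ?_
          refine Function.Injective.sumElim Subtype.val_injective Subtype.val_injective ?_
          rintro ⟨a, ha⟩ ⟨b, hb⟩ (h : a = b)
          rw [h, hb] at ha
          norm_num at ha
        rw [card_orderOf_eq_prime hS3, h30] at hdisj
        have hle := Nat.le_of_dvd (by norm_num) hd
        unfold Nat.ModEq at hmod
        generalize Nat.card (Sylow 3 N) = n at *
        interval_cases n <;> omega
      haveI := (Nat.card_eq_one_iff_unique.1 hone).1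
      obtain ⟨x, hx⟩ := exists_prime_orderOf_dvd_card' (G := N) 3 (by rw [h30]; norm_num)
      obtain ⟨z, hz⟩ := exists_prime_orderOf_dvd_card' (G := N) 5 h5
      obtain ⟨R, hR⟩ := (IsPGroup.of_card (p := 3) (n := 1)
        (by rw [Nat.card_zpowers, hx, pow_one]) : IsPGroup 3 ↥(zpowers x)).exists_le_sylow
      have hRx : (R : Subgroup N) = zpowers x :=
        (eq_of_le_of_card_ge hR (by rw [hS3 R, Nat.card_zpowers, hx])).symm
      have hn : (R : Subgroup N).Normal := Sylow.normal_of_subsingleton R
      have hzx : Commute z x := commute_of_normalizes hz hx (by norm_num) (by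
        rw [← hRx, normalizer_eq_top]; exact mem_top z)
      exact h15 x z (by rw [orderOf_coe, hx]) (by rw [orderOf_coe, hz])
        (hzx.symm.map N.subtype)
    · exact eq_top_of_card_eq N (by rw [h60', h60])
  · left
    by_contra hbot
    have hyn : y ∈ normalizer (N : Set M) := by rw [normalizer_eq_top]; exact mem_top y
    have hfix : ∀ d ∈ N, Commute y d → d = 1 := by
      intro d hd' hyd
      have hd3 : ¬ 3 ∣ orderOf d := fun h => h15 _ y
        (orderOf_pow_orderOf_div (orderOf_pos d).ne' h) hy (hyd.symm.pow_left _)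
      have hd12 : orderOf d ∣ 4 := by
        have h1 : orderOf d ∣ Nat.card N := orderOf_dvd_natCard _ hd'
        have h2 : orderOf d ∣ 60 := h1.trans hNd
        have h5' : ¬ 5 ∣ orderOf d := fun h => h5 (h.trans h1)
        have h4 : (orderOf d).Coprime 3 := by
          rw [Nat.coprime_comm]; exact Nat.prime_three.coprime_iff_not_dvd.2 hd3
        have h4' : (orderOf d).Coprime 5 := by
          rw [Nat.coprime_comm]; exact (by norm_num : Nat.Prime 5).coprime_iff_not_dvd.2 h5'
        exact h4'.dvd_of_dvd_mul_right (h4.dvd_of_dvd_mul_right (show orderOf d ∣ 4 * 5 * 3 by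
          norm_num; exact h2))
      by_contra hd1
      have hsq : (d ^ 2) ^ 2 = 1 := by
        rw [← pow_mul]; exact orderOf_dvd_iff_pow_eq_one.1 hd12
      have hd2 : d ^ 2 = 1 := hC5 y _ hy (hyd.pow_right 2) hsq
      exact hd1 (hC5 y d hy hyd hd2)
    have hmod := card_modEq_one_of_fixedPointFree hy hyn hfix
    have hN1 : Nat.card N ≠ 1 := fun h => hbot (card_eq_one.1 h)
    have h6 : Nat.card N = 6 := by
      have h1 : Nat.card N ∣ 12 := by
        have : (Nat.card N).Coprime 5 := by
          rw [Nat.coprime_comm]; exact (by norm_num : Nat.Prime 5).coprime_iff_not_dvd.2 h5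
        exact this.dvd_of_dvd_mul_right (show Nat.card N ∣ 12 * 5 by norm_num; exact hNd)
      have hle := Nat.le_of_dvd (by norm_num) h1
      unfold Nat.ModEq at hmod
      generalize Nat.card N = n at *
      interval_cases n <;> omega
    -- `y` normalizes the Sylow `3`-subgroup of `N`
    have hS3 : ∀ R : Sylow 3 N, Nat.card ↥(R : Subgroup N) = 3 := fun R =>
      (card_sylow_subgroup (a := 1) (m := 2) (by rw [h6]; norm_num) (by norm_num) R).trans
        (pow_one 3)
    have hd := card_sylow_dvd (G := N) (p := 3) (a := 1) (m := 2) (by rw [h6]; norm_num)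
    have hmod3 := card_sylow_modEq_one 3 N
    have hone : Nat.card (Sylow 3 N) = 1 := by
      have hle := Nat.le_of_dvd (by norm_num) hd
      unfold Nat.ModEq at hmod3
      generalize Nat.card (Sylow 3 N) = n at *
      interval_cases n <;> omega
    haveI := (Nat.card_eq_one_iff_unique.1 hone).1
    obtain ⟨x, hx⟩ := exists_prime_orderOf_dvd_card' (G := N) 3 (by rw [h6]; norm_num)
    have hconj : ∀ g : M, g * (x : M) * g⁻¹ ∈ zpowers (x : M) := by
      intro g
      set x' : N := ⟨g * (x : M) * g⁻¹, hN.conj_mem _ x.2 g⟩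
      have hx' : orderOf x' = 3 := by
        rw [← Subgroup.orderOf_coe, ← hx, ← Subgroup.orderOf_coe x]
        exact (MulAut.conj g).orderOf_eq (x : M)
      obtain ⟨R, hR⟩ := (IsPGroup.of_card (p := 3) (n := 1)
        (by rw [Nat.card_zpowers, hx, pow_one]) : IsPGroup 3 ↥(zpowers x)).exists_le_sylow
      obtain ⟨R', hR'⟩ := (IsPGroup.of_card (p := 3) (n := 1)
        (by rw [Nat.card_zpowers, hx', pow_one]) : IsPGroup 3 ↥(zpowers x')).exists_le_sylow
      have hm : x' ∈ zpowers x := by
        rw [eq_of_le_of_card_ge hR (by rw [hS3 R, Nat.card_zpowers, hx]), Subsingleton.elim R R']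
        exact hR' (mem_zpowers x')
      obtain ⟨i, hi⟩ := mem_zpowers_iff.1 hm
      exact mem_zpowers_iff.2 ⟨i, congrArg Subtype.val hi⟩
    have hnx : ∀ g : M, g ∈ normalizer ((zpowers (x : M) : Subgroup M) : Set M) := by
      intro g
      rw [mem_normalizer_iff]
      intro z
      refine ⟨fun hz => ?_, fun hz => ?_⟩
      · obtain ⟨i, rfl⟩ := mem_zpowers_iff.1 hz
        have := zpow_mem (hconj g) i
        rwa [conj_zpow] at this
      · obtain ⟨i, hi⟩ := mem_zpowers_iff.1 hz
        have := zpow_mem (hconj g⁻¹) i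
        rw [conj_zpow, hi, show g⁻¹ * (g * z * g⁻¹) * g⁻¹⁻¹ = z by group] at this
        exact this
    exact h15 x y (by rw [orderOf_coe, hx]) hy
      (commute_of_normalizes hy (by rw [orderOf_coe, hx]) (by norm_num) (hnx y)).symm

/-- The structure of an involution centralizer. -/
theorem centralizer_iso (hd : Nat.card G = 175560) :
    ∃ t : G, Cfsg.IsTwoCentralInvolution t ∧
      Nonempty (centralizer ({t} : Set G) ≃* Multiplicative (ZMod 2) × alternatingGroup (Fin 5)) := by
  classical
  obtain ⟨t, ht⟩ := exists_prime_orderOf_dvd_card' (G := G) 2 (by rw [hd]; norm_num)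
  obtain ⟨f, D⟩ := exists_data (G := G) hd
  obtain ⟨hC120, hno4, hc5, -, -⟩ := forced hd D ht
  set H := centralizer ({t} : Set G) with hH
  let t' : H := ⟨t, mem_centralizer_singleton_iff.2 rfl⟩
  have ht' : orderOf t' = 2 := by rw [← Subgroup.orderOf_coe]; exact ht
  have hcen : ∀ h : H, Commute t' h := fun h =>
    Subtype.ext (mem_centralizer_singleton_iff.1 h.2).symm
  obtain ⟨T⟩ : Nonempty (Sylow 2 H) := inferInstance
  have hT8 : Nat.card ↥(T : Subgroup H) = 8 :=
    (card_sylow_subgroup (a := 3) (m := 15) (by rw [hC120]; norm_num) (by norm_num) T).trans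
      (by norm_num)
  have hTsq : ∀ z : ↥(T : Subgroup H), z * z = 1 := by
    intro z
    have hd8 : orderOf z ∣ 2 ^ 3 := by
      have := orderOf_dvd_natCard z
      rwa [hT8] at this
    obtain ⟨i, hi, hio⟩ := (Nat.dvd_prime_pow Nat.prime_two).1 hd8
    rw [← pow_two, ← orderOf_dvd_iff_pow_eq_one, hio]
    rcases Nat.lt_or_ge i 2 with h | h
    · interval_cases i <;> norm_num
    · exfalso
      refine hno4 (((z : H) : G) ^ (2 ^ (i - 2))) ?_
      rw [orderOf_pow, orderOf_coe, orderOf_coe, hio]
      interval_cases i <;> norm_num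
  haveI hTc : IsMulCommutative ↥(T : Subgroup H) := ⟨⟨fun p q => by
    have hinv : ∀ r : ↥(T : Subgroup H), r⁻¹ = r := fun r => inv_eq_of_mul_eq_one_right (hTsq r)
    rw [← hinv (p * q), mul_inv_rev, hinv, hinv]⟩⟩
  -- transfer to `T`
  open scoped IsMulCommutative in
  let τ : H →* ↥(T : Subgroup H) := MonoidHom.transfer (MonoidHom.id ↥(T : Subgroup H))
  have hidx : (T : Subgroup H).index = 15 := by
    have := (T : Subgroup H).card_mul_index
    rw [hT8, hC120] at this
    omega
  open scoped IsMulCommutative in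
  have hτ : (τ t' : H) = t' ^ 15 := by
    rw [← hidx]
    exact congrArg Subtype.val (MonoidHom.transfer_eq_pow (MonoidHom.id ↥(T : Subgroup H)) t'
      fun k g₀ _ => by
        rw [mul_assoc, ((hcen g₀).pow_left k).eq, inv_mul_cancel_left])
  have hτ1 : τ t' ≠ 1 := by
    intro h
    rw [h, OneMemClass.coe_one] at hτ
    have := orderOf_dvd_of_pow_eq_one hτ.symm
    rw [ht'] at this
    norm_num at this
  open scoped IsMulCommutative in
  obtain ⟨φ, hφ⟩ := CommGroup.exists_apply_ne_one_of_hasEnoughRootsOfUnity
    ↥(T : Subgroup H) ℂ hτ1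
  let χ : H →* ℂˣ := φ.comp τ
  have hχt : χ t' ≠ 1 := hφ
  have hχsq : ∀ h : H, χ h = 1 ∨ χ h = -1 := by
    intro h
    have h1 : χ h ^ 2 = 1 := by
      show φ (τ h) ^ 2 = 1
      rw [pow_two, ← map_mul, hTsq, map_one]
    have h2 : ((χ h : ℂˣ) : ℂ) ^ 2 = 1 := by
      rw [← Units.val_pow_eq_pow_val, h1, Units.val_one]
    rcases sq_eq_one_iff.1 h2 with h | h
    · exact Or.inl (Units.ext h)
    · exact Or.inr (Units.ext (by rw [Units.val_neg, Units.val_one]; exact h))
  set M := χ.ker with hM
  have htM : t' ∉ M := hχt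
  have hsplit : ∀ h : H, h ∈ M ∨ t' * h ∈ M := by
    intro h
    rcases hχsq h with h1 | h1
    · exact Or.inl h1
    · right
      show χ (t' * h) = 1
      rw [map_mul, h1, (hχsq t').resolve_left hχt, neg_mul_neg, one_mul]
  have hidxM : M.index = 2 := by
    rw [Subgroup.index_eq_two_iff]
    refine ⟨t', fun b => ?_⟩
    have hb : t' * b = b * t' := (hcen b).eq
    rw [← hb]
    by_cases h : b ∈ M
    · exact Or.inr ⟨h, fun h' => htM (by
        have := M.mul_mem h' (M.inv_mem h)
        rwa [mul_inv_cancel_right] at this)⟩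
    · exact Or.inl ⟨(hsplit b).resolve_left h, h⟩
  have hM60 : Nat.card M = 60 := by
    have := M.card_mul_index
    rw [hidxM, hC120] at this
    omega
  have hord : ∀ (z : M) (n : ℕ), orderOf z = n → orderOf (((z : H) : G)) = n := fun z n h => by
    rw [orderOf_coe, orderOf_coe]; exact h
  have htG : ∀ z : M, Commute t ((z : H) : G) := fun z => congrArg Subtype.val (hcen (z : H)).eq
  have h15 : ∀ x y : M, orderOf x = 3 → orderOf y = 5 → ¬ Commute x y := fun x y hx hy hc =>
    no_fifteen hd D ht (hord x 3 hx) (hord y 5 hy) (htG x) (htG y)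
      ((hc.map M.subtype).map H.subtype)
  have hC5 : ∀ y z : M, orderOf y = 5 → Commute y z → z ^ 2 = 1 → z = 1 := by
    intro y z hy hyz hz
    by_contra hz1
    -- `t` and `z` generate a four-group in `C(y)`, whose order is not divisible by four
    let E : Subgroup H := zpowers t' ⊔ zpowers (z : H)
    have hzH : (z : H) ∉ zpowers t' := by
      intro hm
      rw [(isOfFinOrder_of_finite t').mem_zpowers_iff_mem_range_orderOf, Finset.mem_image, ht'] at hm
      obtain ⟨i, hi, hiz⟩ := hm
      rw [Finset.mem_range] at hi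
      interval_cases i
      · exact hz1 (Subtype.ext (by simpa using hiz.symm))
      · exact htM (by rw [pow_one] at hiz; rw [hiz]; exact z.2)
    have hcomm : Commute t' (z : H) := hcen _
    let W : Subgroup G := (zpowers t' ⊔ zpowers (z : H)).map H.subtype
    have hz2 : orderOf (z : H) = 2 := by
      rw [Subgroup.orderOf_coe]
      exact orderOf_eq_prime hz hz1
    have hEc : Nat.card E = 4 := by
      haveI : (zpowers t').Normal := ⟨fun a ha g => by
        obtain ⟨i, rfl⟩ := mem_zpowers_iff.1 ha
        rw [← ((hcen g).zpow_left i).eq, mul_inv_cancel_right]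
        exact zpow_mem (mem_zpowers t') i⟩
      have hdis : zpowers t' ⊓ zpowers (z : H) = ⊥ := by
        rw [Subgroup.eq_bot_iff_forall]
        rintro w ⟨hw1, hw2⟩
        change w ∈ zpowers t' at hw1
        change w ∈ zpowers (z : H) at hw2
        rw [(isOfFinOrder_of_finite (z : H)).mem_zpowers_iff_mem_range_orderOf,
          Finset.mem_image, hz2] at hw2
        obtain ⟨i, hi, rfl⟩ := hw2
        rw [Finset.mem_range] at hi
        interval_cases i
        · exact pow_zero _
        · exact absurd (by simpa using hw1) hzH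
      have h1 := Subgroup.relIndex_sup_right (H := zpowers (z : H)) (K := zpowers t')
      have h2 := relIndex_mul_relIndex (⊥ : Subgroup H) (zpowers t') E bot_le le_sup_left
      rw [relIndex_bot_left, relIndex_bot_left, Nat.card_zpowers, ht'] at h2
      rw [sup_comm] at h1
      have h3 : (zpowers t').relIndex (zpowers (z : H)) = 2 := by
        rw [← Subgroup.inf_relIndex_right, hdis, relIndex_bot_left, Nat.card_zpowers, hz2]
      rw [h1, h3] at h2
      omega
    have hWc : Nat.card W = 4 := by
      rw [← hEc]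
      exact (Nat.card_congr (E.equivMapOfInjective _ H.subtype_injective).toEquiv).symm
    obtain ⟨P, hP'⟩ := (IsPGroup.of_card (p := 5) (n := 1)
      (by rw [Nat.card_zpowers, hord y 5 hy, pow_one]) :
        IsPGroup 5 ↥(zpowers (((y : M) : H) : G))).exists_le_sylow
    have m5 : (5 : ℕ) ∈ five := by decide
    have hPy := zpowers_eq_sylow (D.sylow 5 m5) (hord y 5 hy) P (hP' (mem_zpowers _))
    have hWC : W ≤ centralizer ((P : Subgroup G) : Set G) := by
      refine map_le_iff_le_comap.2 (sup_le (zpowers_le.2 ?_) (zpowers_le.2 ?_))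
      · intro w hw
        rw [SetLike.mem_coe, hPy, mem_zpowers_iff] at hw
        obtain ⟨i, rfl⟩ := hw
        exact ((htG y).symm.zpow_left i).eq
      · intro w hw
        rw [SetLike.mem_coe, hPy, mem_zpowers_iff] at hw
        obtain ⟨i, rfl⟩ := hw
        exact (((hyz.map M.subtype).map H.subtype).zpow_left i).eq
    have := card_dvd_of_le hWC
    rw [hWc, D.cent 5 m5 P, hc5] at this
    norm_num at this
  haveI hsimple : IsSimpleGroup M := isSimple_sixty hM60 h15 hC5
  obtain ⟨eA⟩ := S0494.result (G := M) hM60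
  -- the direct product
  have hz2 : Nat.card (zpowers t') = Nat.card (Multiplicative (ZMod 2)) := by
    rw [Nat.card_zpowers, ht', Nat.card_congr Multiplicative.toAdd, Nat.card_zmod]
  have hZ : Nat.card (zpowers t') = 2 := by rw [Nat.card_zpowers, ht']
  let e2 : Multiplicative (ZMod 2) ≃* zpowers t' := mulEquivOfPrimeCardEq (hz2 ▸ hZ) hZ
  let Ψ : zpowers t' × M →* H := MonoidHom.noncommCoprod (zpowers t').subtype M.subtype
    fun a m => by
      obtain ⟨i, hi⟩ := mem_zpowers_iff.1 a.2
      show Commute (a : H) (m : H)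
      rw [← hi]
      exact (hcen _).zpow_left i
  have hΨ : Function.Bijective Ψ := by
    have hinj : Function.Injective Ψ := by
      rw [injective_iff_map_eq_one]
      rintro ⟨a, m⟩ h
      have h' : (a : H) * (m : H) = 1 := h
      have ha : (a : H) ∈ M := by rw [eq_inv_of_mul_eq_one_left h']; exact M.inv_mem m.2
      obtain ⟨i, hi⟩ := mem_zpowers_iff.1 a.2
      have ha1 : (a : H) = 1 := by
        have h2 := a.2
        rw [(isOfFinOrder_of_finite t').mem_zpowers_iff_mem_range_orderOf, Finset.mem_image, ht'] at h2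
        obtain ⟨j, hj, hja⟩ := h2
        rw [Finset.mem_range] at hj
        interval_cases j
        · rw [← hja, pow_zero]
        · rw [← hja, pow_one] at ha; exact absurd ha htM
      rw [ha1, one_mul] at h'
      exact Prod.ext (Subtype.ext ha1) (Subtype.ext h')
    refine (Nat.bijective_iff_injective_and_card _).2 ⟨hinj, ?_⟩
    rw [Nat.card_prod, hZ, hM60, hC120]
  refine ⟨t, ⟨ht, ?_⟩, ⟨(MulEquiv.ofBijective Ψ hΨ).symm.trans (MulEquiv.prodCongr e2.symm eA)⟩⟩
  -- `t` is central in a Sylow 2-subgroup
  have h8 : Nat.card ((T : Subgroup H).map H.subtype) = 8 := by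
    rw [← Nat.card_congr ((T : Subgroup H).equivMapOfInjective _ H.subtype_injective).toEquiv, hT8]
  obtain ⟨S, hS⟩ := (IsPGroup.of_card (p := 2) (n := 3) (by rw [h8]; norm_num) :
    IsPGroup 2 ((T : Subgroup H).map H.subtype)).exists_le_sylow
  have hST : (T : Subgroup H).map H.subtype = (S : Subgroup G) :=
    eq_of_le_of_card_ge hS (by rw [h8, card_sylow_two hd S])
  refine ⟨S, ?_, fun x hx => ?_⟩
  · have htT : t' ∈ (T : Subgroup H) := by
      have hn : t' ∈ normalizer ((T : Subgroup H) : Set H) := by
        rw [mem_normalizer_iff]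
        intro z
        rw [(hcen z).eq, mul_inv_cancel_right]
      have hle : zpowers t' ⊔ (T : Subgroup H) = (T : Subgroup H) :=
        T.is_maximal' (IsPGroup.to_sup_of_normal_right' (IsPGroup.of_card (n := 1)
          (by rw [Nat.card_zpowers, ht']; norm_num)) T.isPGroup' (zpowers_le.2 hn)) le_sup_right
      rw [← hle]
      exact mem_sup_left (mem_zpowers t')
    show t ∈ (S : Subgroup G)
    rw [← hST]
    exact ⟨t', htT, rfl⟩
  · have hx' : x ∈ (S : Subgroup G) := hx
    rw [← hST] at hx'
    exact mem_centralizer_singleton_iff.1 (map_subtype_le _ hx')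

end Cfsg.Agent.Order175560
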