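import Mathlib

/-! A kernel-checked arithmetic exclusion of Sylow data for proper divisors of 175560. -/

set_option autoImplicit false

namespace Cfsg.Agent.Order175560

/-- The divisors of 175560. -/
def divL : List ℕ :=
  [1, 2, 3, 4, 5, 6, 7, 8, 10, 11, 12, 14, 15, 19, 20, 21, 22, 24, 28, 30, 33, 35, 38, 40, 42, 44, 55, 56, 57, 60, 66, 70, 76, 77, 84, 88, 95, 105, 110, 114, 120, 132, 133, 140, 152, 154, 165, 168, 190, 209, 210, 220, 228, 231, 264, 266, 280, 285, 308, 330, 380, 385, 399, 418, 420, 440, 456, 462, 532, 570, 616, 627, 660, 665, 760, 770, 798, 836, 840, 924, 1045, 1064, 1140, 1155, 1254, 1320, 1330, 1463, 1540, 1596, 1672, 1848, 1995, 2090, 2280, 2310, 2508, 2660, 2926, 3080, 3135, 3192, 3990, 4180, 4389, 4620, 5016, 5320, 5852, 6270, 7315, 7980, 8360, 8778, 9240, 11704, 12540, 14630, 15960, 17556, 21945, 25080, 29260, 35112, 43890, 58520, 87780, 175560]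

/-- Possible `(n, c, e)`: number of Sylow `q`-subgroups, `|C| / q`, `|N : C|`. -/
def opts (d q : ℕ) : List (ℕ × ℕ × ℕ) :=
  (divL.filter fun m => d / q % m == 0 && m % q == 1 && decide (1 < m)).flatMap fun m =>
    ((divL.filter fun e => decide (1 < e) && (q - 1) % e == 0 && d / q / m % e == 0).map
      fun e => (m, d / q / m / e, e)).filter
      fun o => !(q == 19 && o.1 == 20 && (o.2.1 != 1 || o.2.2 % 2 == 0))

/-- Possible Sylow numbers of centralizers. -/
def locs (n r : ℕ) : List ℕ := divL.filter fun i => n % i == 0 && i % r == 1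

/-- Compatibility of the data of two primes. -/
def compat (a b : ℕ × (ℕ × ℕ × ℕ)) : Bool :=
  if a.2.2.1 % b.1 == 0 then
    b.2.2.1 % a.1 == 0 &&
      ((locs (a.1 * a.2.2.1 / b.1) b.1).any fun i =>
        (locs (b.1 * b.2.2.1 / a.1) a.1).any fun j => a.2.1 * i == b.2.1 * j)
  else b.2.2.1 % a.1 != 0

/-- No two primes of the list share an element of mixed order. -/
def indep (S : List (ℕ × (ℕ × ℕ × ℕ))) : Bool :=
  S.all fun a => S.all fun b => a.1 == b.1 || a.2.2.1 % b.1 != 0

/-- A new entry contradicts the earlier ones. -/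
def bad (d : ℕ) (o : ℕ × (ℕ × ℕ × ℕ)) (a : List (ℕ × (ℕ × ℕ × ℕ))) : Bool :=
  (a.any fun b => !compat o b) ||
    (a.sublists.any fun S => indep (o :: S) &&
      decide (d ≤ ((o :: S).map fun x => x.2.1 * ((x.1 - 1) * x.2.2.1)).sum))

/-- Exhaustive search. -/
def search (d : ℕ) : List ℕ → List (ℕ × (ℕ × ℕ × ℕ)) → Bool
  | [], _ => false
  | q :: qs, a => (opts d q).all fun o => bad d (q, o) a || search d qs ((q, o) :: a)

/-- The odd primes dividing `d`. -/
def oddPrimes (d : ℕ) : List ℕ := [19, 11, 7, 5, 3].filter fun q => d % q == 0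

theorem all_excluded :
    (divL.all fun d => !(d % 19 == 0 && d != 19 && d != 175560) || search d (oddPrimes d) []) =
      true := by
  decide +kernel

theorem small_prime_power :
    (divL.all fun m => m % 19 == 0 || decide (m ≤ 11) ||
      ([2, 3, 5, 7, 11].any fun q => [2, 3, 5, 7, 11].any fun r =>
        q != r && m % q == 0 && m % r == 0)) = true := by
  decide +kernel

end Cfsg.Agent.Order175560
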