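import Cfsg.Agent.Order175560.Check

/-! Kernel-checked search: the Sylow data and the element count determine the configuration of `J₁`
among simple groups of order 175560. -/

set_option autoImplicit false
set_option maxRecDepth 100000

namespace Cfsg.Agent.Order175560

/-- Possible numbers of elements of order divisible by `p` and `q`, given the data of `p`. -/
def overlaps (p : ℕ) (a : ℕ × ℕ × ℕ) (q : ℕ) : List ℕ :=
  if a.2.1 % q == 0 then (List.range' 1 (a.2.1 - 1)).map fun j => a.1 * (p - 1) * j else [0]

/-- Sums of two lists. -/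
def sumset (A B : List ℕ) : List ℕ := (A.flatMap fun a => B.map fun b => a + b).eraseDups

/-- At most two of the five primes divide the order of any element. -/
def noTriple (cfg : List (ℕ × (ℕ × ℕ × ℕ))) : Bool :=
  cfg.all fun a => decide ((cfg.filter fun b => b.1 != a.1 && a.2.2.1 % b.1 == 0).length ≤ 1)

/-- The odd part of the order of an involution centralizer. -/
def oddPart (cfg : List (ℕ × (ℕ × ℕ × ℕ))) : ℕ :=
  (cfg.map fun a => if a.2.2.1 % 2 == 0 then a.1 else 1).prod

/-- A bound on the odd part of the order of the centralizer of an element of order four. -/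
def fourPart (cfg : List (ℕ × (ℕ × ℕ × ℕ))) : ℕ :=
  (cfg.map fun a => if a.2.2.1 % 4 == 0 then a.1 else 1).prod

/-- The possible values of the total overlap. -/
def overlapSums : List (ℕ × (ℕ × ℕ × ℕ)) → List ℕ
  | [] => [0]
  | a :: l => sumset (l.foldr (fun b A => sumset (overlaps a.1 a.2 b.1) A) [0]) (overlapSums l)

/-- The configuration of `J₁`. -/
def jConfig : List (ℕ × (ℕ × ℕ × ℕ)) :=
  [(19, 1540, 1, 6), (11, 1596, 1, 10), (7, 4180, 1, 6), (5, 2926, 6, 2), (3, 2926, 10, 2)]

/-- The element count can hold only for the configuration of `J₁`. -/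
def countOk (cfg : List (ℕ × (ℕ × ℕ × ℕ))) : Bool :=
  noTriple cfg && ((List.range (4 * fourPart cfg)).all fun k =>
    (overlapSums cfg).all fun o =>
      (1 + 21945 / oddPart cfg + 43890 / fourPart cfg * k + (cfg.map fun a => a.2.1 * ((a.1 - 1) * a.2.2.1)).sum !=
          175560 + o) ||
        (cfg == jConfig && k == 0))

/-- Depth-first check over all compatible configurations. -/
def checkAll : List ℕ → List (ℕ × (ℕ × ℕ × ℕ)) → Bool
  | [], cfg => countOk cfg.reverse
  | q :: qs, cfg => (opts 175560 q).all fun o =>
      (cfg.any fun b => !compat b (q, o)) || checkAll qs ((q, o) :: cfg)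

theorem checkAll_true : checkAll [19, 11, 7, 5, 3] [] = true := by decide +kernel

theorem checkAll_sound : ∀ (qs : List ℕ) (cfg : List (ℕ × (ℕ × ℕ × ℕ))) (f : ℕ → ℕ × ℕ × ℕ),
    checkAll qs cfg = true → (∀ q ∈ qs, f q ∈ opts 175560 q) →
    (∀ q ∈ qs, ∀ b ∈ cfg, compat b (q, f q) = true) →
    qs.Pairwise (fun q r => compat (q, f q) (r, f r) = true) →
      countOk (cfg.reverse ++ qs.map fun q => (q, f q)) = true := by
  intro qs
  induction qs with
  | nil => intro cfg f h _ _ _; simpa [checkAll] using h
  | cons q qs ih =>
    intro cfg f h hopt hcfg hpw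
    rw [checkAll, List.all_eq_true] at h
    have h1 := h (f q) (hopt q (by simp))
    have h2 : (cfg.any fun b => !compat b (q, f q)) = false := by
      rw [List.any_eq_false]
      intro b hb
      rw [hcfg q (by simp) b hb]
      decide
    rw [h2, Bool.false_or] at h1
    obtain ⟨hq, hpw'⟩ := List.pairwise_cons.1 hpw
    have := ih ((q, f q) :: cfg) f h1 (fun r hr => hopt r (by simp [hr]))
      (fun r hr b hb => by
        rcases List.mem_cons.1 hb with rfl | hb
        · exact hq r hr
        · exact hcfg r (by simp [hr]) b hb) hpw'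
    simpa [List.reverse_cons, List.append_assoc] using this

end Cfsg.Agent.Order175560
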