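import Cfsg.Agent.SmallGroups.Counting
import Mathlib.GroupTheory.SchurZassenhaus

/-! Exact counts of the elements whose order is divisible by a prime with Sylow subgroups of prime
order. -/

set_option autoImplicit false
set_option linter.unusedSectionVars false
set_option linter.style.haveILetI false

open Subgroup

namespace Cfsg.Agent.Order175560

variable {G : Type*} [Group G] [Finite G] {r c : ℕ} [hr : Fact r.Prime]

theorem zpowers_eq_sylow (hP : ∀ P : Sylow r G, Nat.card ↥(P : Subgroup G) = r) {x : G}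
    (hx : orderOf x = r) (P : Sylow r G) (hm : x ∈ (P : Subgroup G)) :
    (P : Subgroup G) = zpowers x :=
  (eq_of_le_of_card_ge (zpowers_le.mpr hm) (by rw [hP P, Nat.card_zpowers, hx])).symm

/-- The Sylow subgroup of an element of order divisible by `r`. -/
theorem exists_unique_sylow (hP : ∀ P : Sylow r G, Nat.card ↥(P : Subgroup G) = r) {g : G}
    (hg : r ∣ orderOf g) :
    ∃! P : Sylow r G, g ^ (orderOf g / r) ∈ (P : Subgroup G) := by
  have ho : orderOf (g ^ (orderOf g / r)) = r := orderOf_pow_orderOf_div (orderOf_pos g).ne' hg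
  obtain ⟨P, hP'⟩ := (IsPGroup.of_card (p := r) (n := 1)
    (by rw [Nat.card_zpowers, ho, pow_one]) :
      IsPGroup r ↥(zpowers (g ^ (orderOf g / r)))).exists_le_sylow
  exact ⟨P, hP' (mem_zpowers _), fun Q hQ => Sylow.ext
    ((zpowers_eq_sylow hP ho Q hQ).trans (zpowers_eq_sylow hP ho P (hP' (mem_zpowers _))).symm)⟩

theorem mem_centralizer_of_pow_mem (hP : ∀ P : Sylow r G, Nat.card ↥(P : Subgroup G) = r) {g : G}
    (hg : r ∣ orderOf g) {P : Sylow r G} (hm : g ^ (orderOf g / r) ∈ (P : Subgroup G)) :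
    g ∈ centralizer ((P : Subgroup G) : Set G) := by
  have ho : orderOf (g ^ (orderOf g / r)) = r := orderOf_pow_orderOf_div (orderOf_pos g).ne' hg
  intro z hz
  rw [SetLike.mem_coe, zpowers_eq_sylow hP ho P hm, mem_zpowers_iff] at hz
  obtain ⟨i, rfl⟩ := hz
  exact (((Commute.refl g).pow_left _).zpow_left i).eq

theorem exists_decomp (hP : ∀ P : Sylow r G, Nat.card ↥(P : Subgroup G) = r)
    (hC : ∀ P : Sylow r G, Nat.card ↥(centralizer ((P : Subgroup G) : Set G)) = r * c)
    (hc : ¬ r ∣ c) (P : Sylow r G) :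
    ∃ K : Subgroup G, Nat.card K = c ∧ K ≤ centralizer ((P : Subgroup G) : Set G) ∧
      ∀ g ∈ centralizer ((P : Subgroup G) : Set G),
        ∃ x ∈ (P : Subgroup G), ∃ k ∈ K, g = x * k := by
  set C := centralizer ((P : Subgroup G) : Set G) with hCdef
  have hcomm : IsMulCommutative ↥(P : Subgroup G) :=
    SmallGroups.isMulCommutative_of_prime_card (by rw [hP P]; exact hr.out)
  have hle : (P : Subgroup G) ≤ C := (P : Subgroup G).le_centralizer
  set N : Subgroup C := (P : Subgroup G).subgroupOf C with hN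
  haveI : N.Normal := ⟨fun a ha g => by
    rw [hN, mem_subgroupOf] at ha ⊢
    have : (g : G) * (a : G) * (g : G)⁻¹ = (a : G) := by rw [← g.2 (a : G) ha, mul_inv_cancel_right]
    simpa [this] using ha⟩
  have hNc : Nat.card N = r := by
    rw [hN, Nat.card_congr (subgroupOfEquivOfLe hle).toEquiv, hP P]
  have hidx : N.index = c := by
    have := N.card_mul_index
    rw [hNc, hC P] at this
    exact Nat.eq_of_mul_eq_mul_left hr.out.pos this
  obtain ⟨H, hH⟩ := exists_right_complement'_of_coprime (N := N)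
    (by rw [hNc, hidx]; exact hr.out.coprime_iff_not_dvd.2 hc)
  refine ⟨H.map C.subtype, ?_, map_subtype_le H, fun g hg => ?_⟩
  · have h := hH.card_mul_card
    rw [hNc, hC P] at h
    rw [← Nat.card_congr (H.equivMapOfInjective _ C.subtype_injective).toEquiv]
    exact Nat.eq_of_mul_eq_mul_left hr.out.pos h
  · obtain ⟨⟨⟨x, hx⟩, ⟨k, hk⟩⟩, hxk⟩ := hH.2 ⟨g, hg⟩
    exact ⟨(x : G), hx, (k : G), ⟨k, hk, rfl⟩, (congrArg Subtype.val hxk).symm⟩

/-- In `C(P) = P × K` the elements of order prime to `r` are those of `K`. -/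
theorem not_dvd_iff (hP : ∀ P : Sylow r G, Nat.card ↥(P : Subgroup G) = r) (hc : ¬ r ∣ c)
    {P : Sylow r G} {K : Subgroup G} (hK : Nat.card K = c)
    (hKC : K ≤ centralizer ((P : Subgroup G) : Set G)) {x k : G} (hx : x ∈ (P : Subgroup G))
    (hk : k ∈ K) : (r ∣ orderOf (x * k) ↔ x ≠ 1) ∧ ∀ s : ℕ, s.Prime → s ≠ r →
      (s ∣ orderOf (x * k) ↔ s ∣ orderOf k) := by
  have hxk : Commute x k := hKC hk x hx
  have hkd : orderOf k ∣ c := hK ▸ orderOf_dvd_natCard _ hk
  have hxd : orderOf x ∣ r := hP P ▸ orderOf_dvd_natCard _ hx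
  have hco : Nat.Coprime (orderOf x) (orderOf k) :=
    (Nat.Coprime.coprime_dvd_left hxd ((hr.out.coprime_iff_not_dvd.2 hc))).coprime_dvd_right hkd
  rw [hxk.orderOf_mul_eq_mul_orderOf_of_coprime hco]
  constructor
  · constructor
    · intro h hx1
      rw [hx1, orderOf_one, one_mul] at h
      exact hc (h.trans hkd)
    · intro h
      rw [((Nat.dvd_prime hr.out).1 hxd).resolve_left (fun h' => h (orderOf_eq_one_iff.1 h'))]
      exact dvd_mul_right _ _
  · intro s hs hne
    refine ⟨fun h => (hs.dvd_mul.1 h).resolve_left fun h' => hne ?_, fun h => h.mul_left _⟩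
    exact (Nat.prime_dvd_prime_iff_eq hs hr.out).1 (h'.trans hxd)

/-- Elements of `C(P)` of order divisible by `r`, with a condition on the part prime to `r`. -/
theorem card_in_centralizer (hP : ∀ P : Sylow r G, Nat.card ↥(P : Subgroup G) = r)
    (hC : ∀ P : Sylow r G, Nat.card ↥(centralizer ((P : Subgroup G) : Set G)) = r * c)
    (hc : ¬ r ∣ c) (P : Sylow r G) (p : G → Prop)
    (hp : ∀ x ∈ (P : Subgroup G), ∀ k ∈ centralizer ((P : Subgroup G) : Set G),
      ¬ r ∣ orderOf k → (p (x * k) ↔ p k)) :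
    {g : G | g ∈ centralizer ((P : Subgroup G) : Set G) ∧ r ∣ orderOf g ∧ p g}.ncard =
      (r - 1) *
        {k : G | k ∈ centralizer ((P : Subgroup G) : Set G) ∧ ¬ r ∣ orderOf k ∧ p k}.ncard := by
  classical
  obtain ⟨K, hK, hKC, hdec⟩ := exists_decomp hP hC hc P
  have hle : (P : Subgroup G) ≤ centralizer ((P : Subgroup G) : Set G) := by
    have : IsMulCommutative ↥(P : Subgroup G) :=
      SmallGroups.isMulCommutative_of_prime_card (by rw [hP P]; exact hr.out)
    exact (P : Subgroup G).le_centralizer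
  have hnot : ∀ k ∈ K, ¬ r ∣ orderOf k := fun k hk h => hc (h.trans (hK ▸ orderOf_dvd_natCard _ hk))
  have hKset : {k : G | k ∈ centralizer ((P : Subgroup G) : Set G) ∧ ¬ r ∣ orderOf k ∧ p k} =
      {k : G | k ∈ K ∧ p k} := by
    ext g
    constructor
    · rintro ⟨hg, hng, hpg⟩
      obtain ⟨x, hx, k, hk, rfl⟩ := hdec g hg
      have hx1 : x = 1 := not_not.1 fun h => hng ((not_dvd_iff hP hc hK hKC hx hk).1.2 h)
      rw [hx1, one_mul] at hpg ⊢
      exact ⟨hk, hpg⟩
    · exact fun ⟨hk, hpk⟩ => ⟨hKC hk, hnot g hk, hpk⟩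
  have hset : {g : G | g ∈ centralizer ((P : Subgroup G) : Set G) ∧ r ∣ orderOf g ∧ p g} =
      (fun z : G × G => z.1 * z.2) ''
        ((((P : Subgroup G) : Set G) \ {1}) ×ˢ {k : G | k ∈ K ∧ p k}) := by
    ext g
    constructor
    · rintro ⟨hg, hrg, hpg⟩
      obtain ⟨x, hx, k, hk, rfl⟩ := hdec g hg
      exact ⟨(x, k), ⟨⟨hx, (not_dvd_iff hP hc hK hKC hx hk).1.1 hrg⟩, hk,
        (hp x hx k (hKC hk) (hnot k hk)).1 hpg⟩, rfl⟩
    · rintro ⟨⟨x, k⟩, ⟨⟨hx, hx1⟩, hk, hpk⟩, rfl⟩
      exact ⟨mul_mem (hle hx) (hKC hk), (not_dvd_iff hP hc hK hKC hx hk).1.2 hx1,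
        (hp x hx k (hKC hk) (hnot k hk)).2 hpk⟩
  rw [hKset, hset, Set.InjOn.ncard_image, Set.ncard_prod]
  · congr 1
    rw [Set.ncard_sdiff (by simp [one_mem]) (Set.toFinite _), Set.ncard_singleton,
      ← Nat.card_coe_set_eq]
    exact congrArg (· - 1) (hP P)
  · rintro ⟨x, k⟩ ⟨⟨hx, -⟩, hk, -⟩ ⟨y, l⟩ ⟨⟨hy, -⟩, hl, -⟩ (h : x * k = y * l)
    have hm : y⁻¹ * x ∈ K := by
      rw [show y⁻¹ * x = l * k⁻¹ from by
        rw [inv_mul_eq_iff_eq_mul, ← mul_assoc, ← h, mul_inv_cancel_right]]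
      exact mul_mem hl (inv_mem hk)
    have hd : orderOf (y⁻¹ * x) ∣ r := hP P ▸ orderOf_dvd_natCard _ (mul_mem (inv_mem hy) hx)
    have h1 : y⁻¹ * x = 1 := orderOf_eq_one_iff.1 <|
      ((Nat.dvd_prime hr.out).1 hd).resolve_right fun h' => hnot _ hm h'.symm.dvd
    obtain rfl : x = y := (inv_mul_eq_one.1 h1).symm
    exact Prod.ext rfl (mul_left_cancel h)

/-- Elements of order divisible by `r` satisfying an invariant condition. -/
theorem card_dvd_orderOf (hP : ∀ P : Sylow r G, Nat.card ↥(P : Subgroup G) = r)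
    (hC : ∀ P : Sylow r G, Nat.card ↥(centralizer ((P : Subgroup G) : Set G)) = r * c)
    (hc : ¬ r ∣ c) (P₀ : Sylow r G) (p : G → Prop)
    (hconj : ∀ g a : G, p (a * g * a⁻¹) ↔ p g)
    (hp : ∀ P : Sylow r G, ∀ x ∈ (P : Subgroup G), ∀ k ∈ centralizer ((P : Subgroup G) : Set G),
      ¬ r ∣ orderOf k → (p (x * k) ↔ p k)) :
    {g : G | r ∣ orderOf g ∧ p g}.ncard = Nat.card (Sylow r G) * ((r - 1) *
      {k : G | k ∈ centralizer ((P₀ : Subgroup G) : Set G) ∧ ¬ r ∣ orderOf k ∧ p k}.ncard) := by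
  classical
  rw [← card_in_centralizer hP hC hc P₀ p (hp P₀)]
  haveI : Fintype (Sylow r G) := Fintype.ofFinite _
  let T : Sylow r G → Set G := fun P =>
    {g : G | g ∈ centralizer ((P : Subgroup G) : Set G) ∧ r ∣ orderOf g ∧ p g}
  have hbij : {g : G // r ∣ orderOf g ∧ p g} ≃ Σ P : Sylow r G, T P :=
    { toFun := fun g => ⟨(exists_unique_sylow hP g.2.1).exists.choose, g.1,
        mem_centralizer_of_pow_mem hP g.2.1 (exists_unique_sylow hP g.2.1).exists.choose_spec,
        g.2⟩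
      invFun := fun s => ⟨s.2.1, s.2.2.2⟩
      left_inv := fun g => rfl
      right_inv := fun ⟨P, g, hg, hrg, hpg⟩ => by
        have hu := exists_unique_sylow hP hrg
        have hmem : g ^ (orderOf g / r) ∈ (P : Subgroup G) := by
          have ho : orderOf (g ^ (orderOf g / r)) = r :=
            orderOf_pow_orderOf_div (orderOf_pos g).ne' hrg
          obtain ⟨K, hK, hKC, hdec⟩ := exists_decomp hP hC hc P
          obtain ⟨x, hx, k, hk, hxk⟩ := hdec _ (pow_mem hg (orderOf g / r))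
          have hxk' : Commute x k := hKC hk x hx
          rw [hxk] at ho ⊢
          have hko : orderOf k ∣ r := by
            have : (x * k) ^ r = 1 := ho ▸ pow_orderOf_eq_one _
            rw [hxk'.mul_pow, orderOf_dvd_iff_pow_eq_one.1 (hP P ▸ orderOf_dvd_natCard _ hx),
              one_mul] at this
            exact orderOf_dvd_of_pow_eq_one this
          have hk1 : k = 1 := orderOf_eq_one_iff.1 <|
            ((Nat.dvd_prime hr.out).1 hko).resolve_right fun h' =>
              hc (h'.symm.dvd.trans (hK ▸ orderOf_dvd_natCard _ hk))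
          simpa [hk1] using hx
        obtain rfl : hu.exists.choose = P := hu.unique hu.exists.choose_spec hmem
        rfl }
  have hT : ∀ P : Sylow r G, Nat.card (T P) = (T P₀).ncard := by
    intro P
    obtain ⟨a, rfl⟩ := MulAction.exists_smul_eq G P₀ P
    rw [← Nat.card_coe_set_eq]
    refine (Nat.card_congr ((MulAut.conj a).toEquiv.subtypeEquiv fun g => ?_)).symm
    show g ∈ T P₀ ↔ a * g * a⁻¹ ∈ T (a • P₀)
    simp only [T, Set.mem_ofPred_eq, hconj]
    rw [show orderOf (a * g * a⁻¹) = orderOf g from (MulAut.conj a).orderOf_eq g]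
    refine and_congr_left fun _ => ⟨fun h => ?_, fun h => ?_⟩
    · rintro z ⟨y, hy, rfl⟩
      exact ((Commute.map (show Commute y g from h y hy) (MulAut.conj a).toMonoidHom)).eq
    · intro y hy
      apply (MulAut.conj a).injective
      rw [map_mul, map_mul]
      exact h (MulAut.conj a y) ⟨y, hy, rfl⟩
  rw [← Nat.card_coe_set_eq]
  refine (Nat.card_congr hbij).trans ?_
  rw [Nat.card_sigma, Finset.sum_congr rfl (fun P _ => hT P), Finset.sum_const, Finset.card_univ,
    smul_eq_mul, Nat.card_eq_fintype_card]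

/-- Exactly `c` elements of `C(P)` have order prime to `r`. -/
theorem card_prime_to (hP : ∀ P : Sylow r G, Nat.card ↥(P : Subgroup G) = r)
    (hC : ∀ P : Sylow r G, Nat.card ↥(centralizer ((P : Subgroup G) : Set G)) = r * c)
    (hc : ¬ r ∣ c) (P : Sylow r G) :
    {k : G | k ∈ centralizer ((P : Subgroup G) : Set G) ∧ ¬ r ∣ orderOf k}.ncard = c := by
  obtain ⟨K, hK, hKC, hdec⟩ := exists_decomp hP hC hc P
  have : {k : G | k ∈ centralizer ((P : Subgroup G) : Set G) ∧ ¬ r ∣ orderOf k} = (K : Set G) := by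
    ext g
    constructor
    · rintro ⟨hg, hng⟩
      obtain ⟨x, hx, k, hk, rfl⟩ := hdec g hg
      have hx1 : x = 1 := not_not.1 fun h => hng ((not_dvd_iff hP hc hK hKC hx hk).1.2 h)
      simpa [hx1] using hk
    · exact fun hk => ⟨hKC hk, fun h => hc (h.trans (hK ▸ orderOf_dvd_natCard _ hk))⟩
  rw [this, ← Nat.card_coe_set_eq]
  exact hK

end Cfsg.Agent.Order175560
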