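import Cfsg.Agent.SmallGroups.Counting
import Cfsg.Agent.Lib.ClassSize
import Cfsg.Agent.S0111

/-! The Sylow 2-subgroups and the fusion of involutions in a simple group of order 175560. -/

set_option autoImplicit false
set_option linter.unusedSectionVars false
set_option linter.style.haveILetI false

open Subgroup

namespace Cfsg.Agent.Order175560

local instance : Fact (Nat.Prime 2) := ⟨Nat.prime_two⟩

/-- Squares in a group of order eight without elements of order eight. -/
theorem mul_self_eq_of_order_eight {A : Type*} [Group A] [Finite A] (h8 : Nat.card A = 8)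
    (hc : ¬ IsCyclic A) {x : A} (hx : x * x ≠ 1) (y : A) : y * y = 1 ∨ y * y = x * x := by
  classical
  have hord : ∀ a : A, a ^ 4 = 1 := by
    intro a
    have hd : orderOf a ∣ 8 := h8 ▸ orderOf_dvd_natCard a
    have h' : orderOf a ≠ 8 := fun h => hc (isCyclic_of_orderOf_eq_card a (h.trans h8.symm))
    refine orderOf_dvd_iff_pow_eq_one.1 ?_
    obtain ⟨i, hi, hio⟩ := (Nat.dvd_prime_pow Nat.prime_two).1 (show orderOf a ∣ 2 ^ 3 by simpa using hd)
    interval_cases i
    all_goals simp_all
  have hx4 : orderOf x = 4 := by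
    have : orderOf x = 2 ^ (1 + 1) := orderOf_eq_prime_pow
      (by rwa [pow_one, pow_two]) (by rw [show (2 : ℕ) ^ (1 + 1) = 4 by norm_num]; exact hord x)
    simpa using this
  have hidx : (zpowers x).index = 2 := by
    have := (zpowers x).card_mul_index
    rw [Nat.card_zpowers, hx4, h8] at this
    omega
  have hy : y * y ∈ zpowers x := mul_self_mem_of_index_two hidx y
  obtain ⟨n, hn, h : x ^ n = y * y⟩ := by
    rw [(isOfFinOrder_of_finite x).mem_zpowers_iff_mem_range_orderOf, Finset.mem_image] at hy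
    exact hy
  rw [Finset.mem_range, hx4] at hn
  have hsq : x ^ (2 * n) = 1 := by
    rw [two_mul, pow_add, h, ← pow_two, ← pow_two, ← pow_mul]
    exact hord y
  rw [← orderOf_dvd_iff_pow_eq_one, hx4] at hsq
  interval_cases n <;> norm_num at hsq
  · exact Or.inl (by rw [← h, pow_zero])
  · exact Or.inr (by rw [← h, pow_two])

variable {G : Type*} [Group G] [Finite G] [IsSimpleGroup G] (hG : Nat.card G = 175560)

theorem not_comm (hG : Nat.card G = 175560) : ¬ IsMulCommutative G :=
  SmallGroups.not_isMulCommutative (by rw [hG]; norm_num)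

theorem card_sylow_two (hG : Nat.card G = 175560) (S : Sylow 2 G) :
    Nat.card ↥(S : Subgroup G) = 8 :=
  (SmallGroups.card_sylow_subgroup (a := 3) (m := 21945) (by rw [hG]; norm_num) (by norm_num)
    S).trans (by norm_num)

theorem exists_conj_mem (S : Sylow 2 G) {f : G} {a : ℕ} (hf : orderOf f = 2 ^ a) :
    ∃ g : G, g * f * g⁻¹ ∈ (S : Subgroup G) := by
  obtain ⟨R, hR⟩ := (IsPGroup.of_card (n := a) (by rw [Nat.card_zpowers, hf]) :
    IsPGroup 2 ↥(zpowers f)).exists_le_sylow
  obtain ⟨g, rfl⟩ := MulAction.exists_smul_eq G S R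
  obtain ⟨z, hz, hzf⟩ := hR (mem_zpowers f)
  have hzf' : g * z * g⁻¹ = f := hzf
  refine ⟨g⁻¹, ?_⟩
  rw [← hzf', inv_inv, show g⁻¹ * (g * z * g⁻¹) * g = z by group]
  exact hz

/-- A commutative Sylow 2-subgroup has exponent two. -/
theorem mul_self_eq_one_of_comm (hG : Nat.card G = 175560) (S : Sylow 2 G)
    [IsMulCommutative ↥(S : Subgroup G)] {x : G} (hx : x ∈ (S : Subgroup G)) : x * x = 1 := by
  by_contra hne
  have hA := card_sylow_two hG S
  have hc := SmallGroups.not_isCyclic_sylow_two (not_comm hG) (by rw [hG]; norm_num) S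
  apply hne
  refine SmallGroups.eq_one_of_central_in_normalizer (not_comm hG) S (mul_mem hx hx) fun n hn => ?_
  have hnx : n * x * n⁻¹ ∈ (S : Subgroup G) := (mem_normalizer_iff.1 hn x).1 hx
  rcases mul_self_eq_of_order_eight hA hc (x := ⟨x, hx⟩)
    (fun h => hne (congrArg Subtype.val h)) ⟨_, hnx⟩ with h | h
  · have h' : n * (x * x) * n⁻¹ = 1 := by
      rw [show n * (x * x) * n⁻¹ = n * x * n⁻¹ * (n * x * n⁻¹) by group]
      exact congrArg Subtype.val h
    exact absurd (conj_eq_one_iff.1 h') hne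
  · rw [← mul_inv_eq_iff_eq_mul, show n * (x * x) * n⁻¹ = n * x * n⁻¹ * (n * x * n⁻¹) by group]
    exact congrArg Subtype.val h

theorem exists_conj_normalizer (S : Sylow 2 G) [IsMulCommutative ↥(S : Subgroup G)] {u v : G}
    (hu : u ∈ (S : Subgroup G)) (hv : v ∈ (S : Subgroup G)) (hu2 : orderOf u = 2)
    (hv2 : orderOf v = 2) (hG : Nat.card G = 175560) :
    ∃ n : normalizer ((S : Subgroup G) : Set G), (n : G) * u * (n : G)⁻¹ = v := by
  classical
  set N := normalizer ((S : Subgroup G) : Set G) with hN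
  let orb : G → Set G := fun a => Set.range fun n : N => (n : G) * a * (n : G)⁻¹
  have hSN : (S : Subgroup G) ≤ N := le_normalizer
  set Inv : Set G := ((S : Subgroup G) : Set G) \ {1} with hInv
  have hInv7 : Inv.ncard = 7 := by
    rw [hInv, Set.ncard_sdiff (by simp [one_mem]) (Set.toFinite _), Set.ncard_singleton,
      ← Nat.card_coe_set_eq]
    exact congrArg (· - 1) (card_sylow_two hG S)
  have hsub : ∀ a ∈ Inv, orb a ⊆ Inv := by
    rintro a ⟨ha, ha1⟩ _ ⟨n, rfl⟩
    exact ⟨(mem_normalizer_iff.1 n.2 a).1 ha, fun h => ha1 (conj_eq_one_iff.1 h)⟩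
  have hsize : ∀ a ∈ Inv, Odd (orb a).ncard ∧ 3 ≤ (orb a).ncard := by
    rintro a ⟨ha, ha1⟩
    let a' : N := ⟨a, hSN ha⟩
    have himg : orb a = (fun z : N => (z : G)) '' (Set.range fun n : N => n * a' * n⁻¹) := by
      rw [← Set.range_comp]; rfl
    have hcard : (orb a).ncard = (centralizer ({a'} : Set N)).index := by
      rw [himg, Set.ncard_image_of_injective _ Subtype.val_injective]
      exact ClassSize.ncard_range_conj a'
    have hodd : Odd (orb a).ncard := by
      rw [hcard, Nat.odd_iff]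
      by_contra h
      have h2 : 2 ∣ (centralizer ({a'} : Set N)).index := by omega
      have hS : (S : Subgroup G).subgroupOf N ≤ centralizer ({a'} : Set N) := by
        intro z hz
        rw [mem_centralizer_singleton_iff]
        apply Subtype.ext
        have := mul_comm' (⟨(z : G), hz⟩ : ↥(S : Subgroup G)) ⟨a, ha⟩
        show (z : G) * a = a * (z : G)
        exact congrArg (fun w : ↥(S : Subgroup G) => (w : G)) this
      have h8 : 8 ∣ Nat.card (centralizer ({a'} : Set N)) := by
        rw [← card_sylow_two hG S, ← Nat.card_congr (subgroupOfEquivOfLe hSN).toEquiv]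
        exact card_dvd_of_le hS
      have h16 : 16 ∣ Nat.card N := by
        rw [← (centralizer ({a'} : Set N)).card_mul_index]
        exact Nat.mul_dvd_mul h8 h2
      have := h16.trans (card_subgroup_dvd_card N)
      rw [hG] at this
      norm_num at this
    refine ⟨hodd, ?_⟩
    by_contra hlt
    have hone : (orb a).ncard = 1 := by
      obtain ⟨k, hk⟩ := hodd
      omega
    obtain ⟨b, hb⟩ := Set.ncard_eq_one.1 hone
    refine ha1 (SmallGroups.eq_one_of_central_in_normalizer (not_comm hG) S ha fun n hn => ?_)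
    have h1 : (n : G) * a * n⁻¹ ∈ orb a := ⟨⟨n, hn⟩, rfl⟩
    have h2 : a ∈ orb a := ⟨1, by simp⟩
    rw [hb, Set.mem_singleton_iff] at h1 h2
    rw [← mul_inv_eq_iff_eq_mul, h1, h2]
  have hdisj : ∀ a b, b ∉ orb a → Disjoint (orb a) (orb b) := by
    intro a b hb
    rw [Set.disjoint_left]
    rintro _ ⟨n, rfl⟩ ⟨m, hm⟩
    have hm' : (m : G) * b * (m : G)⁻¹ = (n : G) * a * (n : G)⁻¹ := hm
    refine hb ⟨m⁻¹ * n, ?_⟩
    simp only [Subgroup.coe_mul, Subgroup.coe_inv]
    rw [show ((m : G)⁻¹ * (n : G)) * a * ((m : G)⁻¹ * (n : G))⁻¹ =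
      (m : G)⁻¹ * ((n : G) * a * (n : G)⁻¹) * (m : G) by group, ← hm']
    group
  have hui : u ∈ Inv := ⟨hu, fun h => by
    rw [Set.mem_singleton_iff.1 h, orderOf_one] at hu2; exact absurd hu2 (by norm_num)⟩
  have hvi : v ∈ Inv := ⟨hv, fun h => by
    rw [Set.mem_singleton_iff.1 h, orderOf_one] at hv2; exact absurd hv2 (by norm_num)⟩
  by_contra hno
  have hvu : v ∉ orb u := hno
  obtain ⟨hou, h3u⟩ := hsize u hui
  obtain ⟨hov, h3v⟩ := hsize v hvi
  have hun : (orb u ∪ orb v).ncard = (orb u).ncard + (orb v).ncard :=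
    Set.ncard_union_eq (hdisj u v hvu)
  have hle : orb u ∪ orb v ⊆ Inv := Set.union_subset (hsub u hui) (hsub v hvi)
  have hlt : (orb u ∪ orb v).ncard < 7 := by
    have h7 := Set.ncard_le_ncard hle
    rw [hInv7] at h7
    rcases h7.lt_or_eq with h | h
    · exact h
    · obtain ⟨i, hi⟩ := hou
      obtain ⟨j, hj⟩ := hov
      omega
  obtain ⟨w, hw, hw'⟩ := Set.exists_mem_notMem_of_ncard_lt_ncard (hInv7 ▸ hlt)
  have hd : Disjoint (orb u ∪ orb v) (orb w) := by
    rw [Set.disjoint_union_left]
    exact ⟨hdisj u w fun h => hw' (Or.inl h), hdisj v w fun h => hw' (Or.inr h)⟩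
  have h9 := Set.ncard_le_ncard (Set.union_subset hle (hsub w hw))
  rw [Set.ncard_union_eq hd, hun, hInv7] at h9
  have := (hsize w hw).2
  omega

/-- All involutions are conjugate. -/
theorem isConj_involutions (hG : Nat.card G = 175560) {u v : G} (hu : orderOf u = 2)
    (hv : orderOf v = 2) : IsConj u v := by
  classical
  obtain ⟨S⟩ : Nonempty (Sylow 2 G) := inferInstance
  suffices key : ∀ a b : G, a ∈ (S : Subgroup G) → b ∈ (S : Subgroup G) → orderOf a = 2 →
      orderOf b = 2 → IsConj a b by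
    obtain ⟨g, hg⟩ := exists_conj_mem S (a := 1) hu
    obtain ⟨h, hh⟩ := exists_conj_mem S (a := 1) hv
    have ha : IsConj u (g * u * g⁻¹) := isConj_iff.2 ⟨g, rfl⟩
    have hb : IsConj v (h * v * h⁻¹) := isConj_iff.2 ⟨h, rfl⟩
    exact ha.trans ((key _ _ hg hh (by rw [← hu]; exact (MulAut.conj g).orderOf_eq u)
      (by rw [← hv]; exact (MulAut.conj h).orderOf_eq v)).trans hb.symm)
  intro a b ha hb ha2 hb2
  by_cases hcomm : IsMulCommutative ↥(S : Subgroup G)
  · obtain ⟨n, hn⟩ := exists_conj_normalizer S ha hb ha2 hb2 hG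
    exact isConj_iff.2 ⟨n, hn⟩
  have hA := card_sylow_two hG S
  obtain ⟨x, hx⟩ : ∃ x : ↥(S : Subgroup G), x * x ≠ 1 := by
    by_contra! hall
    refine hcomm ⟨⟨fun p q => ?_⟩⟩
    have hinv : ∀ r : ↥(S : Subgroup G), r⁻¹ = r := fun r => inv_eq_of_mul_eq_one_right (hall r)
    rw [← hinv (p * q), mul_inv_rev, hinv, hinv]
  have hxc : ¬ IsCyclic ↥(S : Subgroup G) := fun h =>
    hcomm ⟨⟨fun p q => by
      obtain ⟨g, hg⟩ := h.exists_generator
      obtain ⟨i, rfl⟩ := mem_zpowers_iff.1 (hg p)
      obtain ⟨j, rfl⟩ := mem_zpowers_iff.1 (hg q)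
      rw [← zpow_add, add_comm, zpow_add]⟩⟩
  have hx4 : orderOf (x : G) = 4 := by
    rw [Subgroup.orderOf_coe]
    have hd : orderOf x ∣ 8 := hA ▸ orderOf_dvd_natCard x
    have h' : orderOf x ≠ 8 := fun h => hxc (isCyclic_of_orderOf_eq_card x (h.trans hA.symm))
    have h2 : ¬ orderOf x ∣ 2 := fun h => hx (by rw [← pow_two]; exact orderOf_dvd_iff_pow_eq_one.1 h)
    have hmem : orderOf x ∈ Nat.divisors 8 := Nat.mem_divisors.2 ⟨hd, by norm_num⟩
    rw [show Nat.divisors 8 = {1, 2, 4, 8} by decide] at hmem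
    simp only [Finset.mem_insert, Finset.mem_singleton] at hmem
    rcases hmem with h | h | h | h
    · exact absurd (h ▸ one_dvd 2) h2
    · exact absurd h.dvd h2
    · exact h
    · exact absurd h h'
  have hQS : zpowers (x : G) ≤ (S : Subgroup G) := zpowers_le.2 x.2
  have hQi : (zpowers (x : G)).relIndex (S : Subgroup G) = 2 := by
    have := relIndex_mul_relIndex (⊥ : Subgroup G) _ _ bot_le hQS
    rw [relIndex_bot_left, relIndex_bot_left, Nat.card_zpowers, hx4, hA] at this
    omega
  have huniq : ∀ w : G, orderOf w = 2 → w ∈ zpowers (x : G) → w = (x : G) ^ 2 := by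
    intro w hw hm
    rw [(isOfFinOrder_of_finite (x : G)).mem_zpowers_iff_mem_range_orderOf, Finset.mem_image] at hm
    obtain ⟨n, hn, rfl⟩ := hm
    rw [Finset.mem_range, hx4] at hn
    rw [orderOf_pow, hx4] at hw
    interval_cases n <;> simp_all
  have hto : ∀ w ∈ (S : Subgroup G), orderOf w = 2 → IsConj w ((x : G) ^ 2) := by
    intro w hw hw2
    by_cases hwQ : w ∈ zpowers (x : G)
    · exact huniq w hw2 hwQ ▸ IsConj.refl _
    rcases S0111.result S _ hQS hQi w hw2 hw hwQ with ⟨M, hM, hMi, -⟩ | ⟨g, hg⟩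
    · rcases hM.eq_bot_or_eq_top with h | h
      · rw [h, index_bot, hG] at hMi; norm_num at hMi
      · rw [h, index_top] at hMi; norm_num at hMi
    · exact isConj_iff.2 ⟨g, huniq _ (by rw [← hw2]; exact (MulAut.conj g).orderOf_eq w) hg⟩
  exact (hto a ha ha2).trans (hto b hb hb2).symm

theorem four_dvd_centralizer {f : G} (hf : orderOf f = 4) :
    4 ∣ Nat.card (centralizer ({f} : Set G)) :=
  hf ▸ orderOf_dvd_natCard _ (mem_centralizer_singleton_iff.2 rfl)

/-- The centralizer of an element of order four has no subgroup of order eight. -/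
theorem not_eight_dvd_centralizer (hG : Nat.card G = 175560) {f : G} (hf : orderOf f = 4) :
    ¬ 8 ∣ Nat.card (centralizer ({f} : Set G)) := by
  intro h8
  obtain ⟨R, hR⟩ := Sylow.exists_subgroup_card_pow_prime 2 (n := 3)
    (G := centralizer ({f} : Set G)) (by simpa using h8)
  let H : Subgroup G := R.map (centralizer ({f} : Set G)).subtype
  have hH : Nat.card H = 8 := by
    rw [← Nat.card_congr (R.equivMapOfInjective _ (subtype_injective _)).toEquiv, hR]
    norm_num
  obtain ⟨S, hS⟩ := (IsPGroup.of_card (p := 2) (n := 3) (by rw [hH]; norm_num) :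
    IsPGroup 2 H).exists_le_sylow
  have hSH : H = (S : Subgroup G) := eq_of_le_of_card_ge hS (by rw [hH, card_sylow_two hG S])
  have hcS : ∀ s ∈ (S : Subgroup G), s * f = f * s := by
    intro s hs
    rw [← hSH] at hs
    exact mem_centralizer_singleton_iff.1 (map_subtype_le R hs)
  have hfS : f ∈ (S : Subgroup G) := by
    have hle : zpowers f ⊔ (S : Subgroup G) = (S : Subgroup G) := by
      refine (S.is_maximal' ?_ le_sup_right)
      refine IsPGroup.to_sup_of_normal_right' (IsPGroup.of_card (n := 2)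
        (by rw [Nat.card_zpowers, hf]; norm_num)) S.isPGroup' ?_
      rw [zpowers_le, mem_normalizer_iff]
      intro s
      constructor
      · intro hs; rw [← hcS s hs, mul_inv_cancel_right]; exact hs
      · intro hs
        have h1 := hcS _ hs
        rw [inv_mul_cancel_right] at h1
        have h2 : f * s * f⁻¹ = s := by
          rw [mul_assoc f s f⁻¹] at h1 ⊢
          exact (mul_left_cancel h1).symm
        rwa [h2] at hs
    rw [← hle]; exact mem_sup_left (mem_zpowers f)
  have hne : f * f ≠ 1 := fun h => by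
    have : orderOf f ∣ 2 := orderOf_dvd_iff_pow_eq_one.2 (by rwa [pow_two])
    rw [hf] at this
    norm_num at this
  have hcomm : IsMulCommutative ↥(S : Subgroup G) := by
    set A := ↥(S : Subgroup G)
    have h4 : 4 ∣ Nat.card (center A) := by
      have := orderOf_dvd_natCard (center A) (x := (⟨f, hfS⟩ : A))
        (mem_center_iff.2 fun s => Subtype.ext (hcS s s.2))
      rwa [← Subgroup.orderOf_coe, hf] at this
    have hidx : (center A).index ∣ 2 := by
      have hm := (center A).card_mul_index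
      rw [card_sylow_two hG S] at hm
      obtain ⟨j, hj⟩ := h4
      rw [hj] at hm
      exact ⟨j, by linarith⟩
    haveI : IsCyclic (A ⧸ center A) := by
      rw [index_eq_card] at hidx
      rcases (Nat.dvd_prime Nat.prime_two).1 hidx with h | h
      · haveI := (Nat.card_eq_one_iff_unique.1 h).1
        exact isCyclic_of_subsingleton
      · exact isCyclic_of_prime_card h
    exact isMulCommutative_of_isCyclic_quotient_center_self A
  exact hne (mul_self_eq_one_of_comm hG S hfS)

end Cfsg.Agent.Order175560
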