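import Cfsg.Agent.Order175560.Main
import Cfsg.Agent.Order175560.Config
import Cfsg.Agent.Order175560.Exact
import Cfsg.Agent.Order175560.TwoPart
import Cfsg.Agent.SmallGroups.Involution

/-! The Sylow data, the involution centralizers and the element orders of a simple group of order
175560 are those of `J₁`. -/

set_option autoImplicit false
set_option linter.unusedSectionVars false
set_option linter.style.haveILetI false

open Subgroup Cfsg.Agent.SmallGroups

namespace Cfsg.Agent.Order175560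

local instance : Fact (Nat.Prime 2) := ⟨Nat.prime_two⟩

/-- The five odd primes dividing 175560. -/
def five : List ℕ := [19, 11, 7, 5, 3]

theorem oddPrimes_eq : oddPrimes 175560 = five := by decide

theorem mem_sumset {A B : List ℕ} {a b : ℕ} (ha : a ∈ A) (hb : b ∈ B) :
    a + b ∈ sumset A B := by
  rw [sumset, List.mem_eraseDups, List.mem_flatMap]
  exact ⟨a, ha, List.mem_map.2 ⟨b, hb, rfl⟩⟩

theorem two_part_list : (divL.all fun m =>
    (!(m % 8 == 0) || m == 8 * (five.map fun q => if m % q == 0 then q else 1).prod) &&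
    (!(m % 4 == 0 && !(m % 8 == 0)) ||
      m == 4 * (five.map fun q => if m % q == 0 then q else 1).prod) &&
    (five.any (fun q => m % q == 0) || [1, 2, 4, 8].contains m)) = true := by
  decide +kernel

variable {G : Type*} [Group G] [Finite G] [IsSimpleGroup G]

/-- `(n, c, e)`: number of Sylow `q`-subgroups, `|C(P)| = q c`, `|N(P) : C(P)| = e`. -/
structure Data (G : Type*) [Group G] (f : ℕ → ℕ × ℕ × ℕ) : Prop where
  num : ∀ q ∈ five, Nat.card (Sylow q G) = (f q).1
  sylow : ∀ q ∈ five, ∀ P : Sylow q G, Nat.card ↥(P : Subgroup G) = q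
  cent : ∀ q ∈ five, ∀ P : Sylow q G,
    Nat.card ↥(centralizer ((P : Subgroup G) : Set G)) = q * (f q).2.1
  coprime : ∀ q ∈ five, ¬ q ∣ (f q).2.1
  check : countOk (five.map fun q => (q, f q)) = true

theorem prime_five {q : ℕ} (hq : q ∈ five) : q.Prime := by
  simp only [five, List.mem_cons, List.not_mem_nil, or_false] at hq
  rcases hq with rfl | rfl | rfl | rfl | rfl <;> norm_num

theorem exists_data (hd : Nat.card G = 175560) : ∃ f, Data G f := by
  classical
  have hG : ¬ IsMulCommutative G := not_comm hd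
  have hodd : ∀ {q : ℕ}, q ∈ five → q ∈ oddPrimes 175560 := fun h => oddPrimes_eq ▸ h
  have data : ∀ q ∈ five, ∃ o : ℕ × ℕ × ℕ, ∀ [Fact q.Prime],
      Nat.card (Sylow q G) = o.1 ∧ 1 < o.1 ∧ o.1 % q = 1 ∧ 1 < o.2.2 ∧ o.2.2 ∣ q - 1 ∧
      o.1 * (o.2.2 * o.2.1) = 175560 / q ∧
      (∀ P : Sylow q G, Nat.card ↥(P : Subgroup G) = q) ∧
      (∀ P : Sylow q G, Nat.card ↥(centralizer ((P : Subgroup G) : Set G)) = q * o.2.1) ∧
      (∀ P : Sylow q G,
        Nat.card ↥(normalizer ((P : Subgroup G) : Set G)) = q * (o.2.2 * o.2.1)) := by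
    intro q hq
    obtain ⟨hqp, hqd, hq2⟩ := prime_of_mem_oddPrimes (hodd hq)
    haveI := Fact.mk hqp
    have hm : (175560 : ℕ) = q * (175560 / q) := (Nat.mul_div_cancel' hqd).symm
    have hndvd : ¬ q ∣ 175560 / q := fun h =>
      hq2 ((Nat.mul_dvd_mul_left q h).trans (hm ▸ dvd_rfl))
    obtain ⟨n, k, c, h1, h2, h3, h4, h5, h6, h7⟩ := exists_primeSylow_data hG (hd.trans hm) hndvd
    rw [Finset.mem_filter, Nat.mem_divisors] at h2 h3
    exact ⟨(n, c, k), fun {_} => ⟨h1, h2.2.2, h2.2.1, h3.2, h3.1.1, h4, h5, h6, h7⟩⟩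
  choose! f hf using data
  have hcop : ∀ q ∈ five, ¬ q ∣ (f q).2.1 := by
    intro q hq h
    haveI := Fact.mk (prime_five hq)
    obtain ⟨-, -, -, -, -, -, -, hC, -⟩ := hf q hq
    obtain ⟨P⟩ : Nonempty (Sylow q G) := inferInstance
    refine (prime_of_mem_oddPrimes (hodd hq)).2.2 ?_
    rw [← hd]
    exact (Nat.mul_dvd_mul_left q h).trans ((hC P).symm.dvd.trans (card_subgroup_dvd_card _))
  have hopt : ∀ q ∈ five, f q ∈ opts 175560 q := by
    intro q hq
    haveI := Fact.mk (prime_five hq)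
    obtain ⟨h1, h2, h3, h4, h5, h6, hP, hC, hN⟩ := hf q hq
    obtain ⟨-, hqd, -⟩ := prime_of_mem_oddPrimes (hodd hq)
    have hdq : 175560 / q ∣ 175560 := Nat.div_dvd_of_dvd hqd
    have hn : (f q).1 ∣ 175560 / q := Dvd.intro _ h6
    have hdiv : 175560 / q / (f q).1 = (f q).2.2 * (f q).2.1 := by
      rw [← h6, Nat.mul_div_cancel_left _ (by omega)]
    have he : (f q).2.2 ∣ 175560 / q / (f q).1 := hdiv ▸ Dvd.intro _ rfl
    rw [opts, List.mem_flatMap]
    refine ⟨(f q).1, List.mem_filter.2 ⟨mem_divL_of_dvd (hn.trans hdq), ?_⟩,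
      List.mem_filter.2 ⟨List.mem_map.2 ⟨(f q).2.2, List.mem_filter.2
        ⟨mem_divL_of_dvd (he.trans ((Nat.div_dvd_of_dvd hn).trans hdq)), ?_⟩, ?_⟩, ?_⟩⟩
    · simp only [Bool.and_eq_true, beq_iff_eq, decide_eq_true_eq]
      exact ⟨⟨Nat.mod_eq_zero_of_dvd hn, h3⟩, h2⟩
    · simp only [Bool.and_eq_true, beq_iff_eq, decide_eq_true_eq]
      exact ⟨⟨h4, Nat.mod_eq_zero_of_dvd h5⟩, Nat.mod_eq_zero_of_dvd he⟩
    · rw [hdiv, Nat.mul_div_cancel_left _ (by omega)]
    · by_cases hsp : q = 19 ∧ (f q).1 = 20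
      · obtain ⟨rfl, h20⟩ := hsp
        obtain ⟨hc1, hk1⟩ := twenty hG (h1.trans h20) (hcop 19 hq) hP hC hN
        simp [hc1, hk1]
      · simp only [Bool.not_eq_true', Bool.and_eq_false_iff, beq_eq_false_iff_ne]
        left
        tauto
  have hcsh : ∀ q ∈ five, ∀ r ∈ five, q ≠ r → r ∣ (f q).2.1 → q ∣ (f r).2.1 := by
    intro q hq r hr hne hdiv
    haveI := Fact.mk (prime_five hq)
    haveI := Fact.mk (prime_five hr)
    obtain ⟨-, -, -, -, -, -, hPq, hCq, -⟩ := hf q hq
    obtain ⟨-, -, -, -, -, -, hPr, hCr, -⟩ := hf r hr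
    obtain ⟨P⟩ : Nonempty (Sylow q G) := inferInstance
    obtain ⟨x, hx⟩ := exists_prime_orderOf_dvd_card' (G := ↥(P : Subgroup G)) q (hPq P).symm.dvd
    obtain ⟨y, hy⟩ := exists_prime_orderOf_dvd_card'
      (G := ↥(centralizer ((P : Subgroup G) : Set G))) r (hCq P ▸ hdiv.mul_left q)
    have hcom : Commute (y : G) (x : G) := (y.2 _ x.2).symm
    have h := dvd_of_commute_prime hPr hCr (x := (y : G)) (y := (x : G)) (s := q)
      (by rw [orderOf_coe]; exact hy) (by rw [orderOf_coe]; exact hx) hcom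
    exact ((Nat.coprime_primes (Fact.out : q.Prime) (Fact.out : r.Prime)).2 hne).dvd_of_dvd_mul_left h
  have hcompat : ∀ q ∈ five, ∀ r ∈ five, q ≠ r → compat (q, f q) (r, f r) = true := by
    intro q hq r hr hne
    haveI := Fact.mk (prime_five hq)
    haveI := Fact.mk (prime_five hr)
    obtain ⟨h1, -, -, -, -, -, hPq, hCq, -⟩ := hf q hq
    obtain ⟨h1', -, -, -, -, -, hPr, hCr, -⟩ := hf r hr
    unfold compat
    by_cases hd' : r ∣ (f q).2.1
    · have hd'' := hcsh q hq r hr hne hd'
      rw [if_pos (by simpa using Nat.mod_eq_zero_of_dvd hd')]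
      obtain ⟨i, hi, hi1, hci⟩ :=
        exists_pair_count hd.dvd (prime_of_mem_oddPrimes (hodd hr)).2.2 hPq hCq hd'
      obtain ⟨j, hj, hj1, hcj⟩ :=
        exists_pair_count hd.dvd (prime_of_mem_oddPrimes (hodd hq)).2.2 hPr hCr hd''
      have hswap : Nat.card {p : G × G // orderOf p.1 = q ∧ orderOf p.2 = r ∧ Commute p.1 p.2} =
          Nat.card {p : G × G // orderOf p.1 = r ∧ orderOf p.2 = q ∧ Commute p.1 p.2} :=
        Nat.card_congr ((Equiv.prodComm G G).subtypeEquiv fun p =>
          ⟨fun h => ⟨h.2.1, h.1, h.2.2.symm⟩, fun h => ⟨h.2.1, h.1, h.2.2.symm⟩⟩)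
      rw [hci, hcj, h1, h1'] at hswap
      have heq : (f q).1 * i = (f r).1 * j := by
        have hq1 : 0 < q - 1 := by have := (Fact.out : q.Prime).two_le; omega
        have hr1 : 0 < r - 1 := by have := (Fact.out : r.Prime).two_le; omega
        refine Nat.eq_of_mul_eq_mul_right (Nat.mul_pos hq1 hr1) ?_
        calc (f q).1 * i * ((q - 1) * (r - 1)) = (f q).1 * (q - 1) * (i * (r - 1)) := by ring
          _ = _ := hswap
          _ = _ := by ring
      have hdvdC : ∀ (s t : ℕ) [Fact s.Prime], s ∈ five → t ∣ s * (f s).2.1 → ∀ i,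
          i ∣ s * (f s).2.1 / t → i ∣ 175560 := by
        intro s t _ hs ht i hi
        obtain ⟨-, -, -, -, -, -, -, hCs, -⟩ := hf s hs
        obtain ⟨P⟩ : Nonempty (Sylow s G) := inferInstance
        exact hi.trans ((Nat.div_dvd_of_dvd ht).trans
          ((hCs P).symm.dvd.trans (hd ▸ card_subgroup_dvd_card _)))
      simp only [Bool.and_eq_true, beq_iff_eq, List.any_eq_true]
      refine ⟨Nat.mod_eq_zero_of_dvd hd'', i, ?_, j, ?_, heq⟩
      · simp only [locs, List.mem_filter, Bool.and_eq_true, beq_iff_eq]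
        exact ⟨mem_divL_of_dvd (hdvdC q r hq (hd'.mul_left q) i hi),
          Nat.mod_eq_zero_of_dvd hi, hi1⟩
      · simp only [locs, List.mem_filter, Bool.and_eq_true, beq_iff_eq]
        exact ⟨mem_divL_of_dvd (hdvdC r q hr (hd''.mul_left r) j hj),
          Nat.mod_eq_zero_of_dvd hj, hj1⟩
    · rw [if_neg (by simpa using fun h => hd' (Nat.dvd_of_mod_eq_zero h))]
      simpa using fun h => hd' (hcsh r hr q hq hne.symm (Nat.dvd_of_mod_eq_zero h))
  refine ⟨f, fun q hq => ?_, fun q hq => ?_, fun q hq => ?_, hcop, ?_⟩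
  · haveI := Fact.mk (prime_five hq)
    exact (hf q hq).1
  · haveI := Fact.mk (prime_five hq)
    exact (hf q hq).2.2.2.2.2.2.1
  · haveI := Fact.mk (prime_five hq)
    exact (hf q hq).2.2.2.2.2.2.2.1
  · have h := checkAll_sound five [] f checkAll_true hopt (by simp)
      (by
        refine List.Pairwise.imp_of_mem (fun {a b} ha hb hne => hcompat a ha b hb hne)
          (show five.Pairwise (· ≠ ·) by decide))
    simpa using h

/-- No element has order divisible by three of the five primes. -/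
theorem no_triple {f : ℕ → ℕ × ℕ × ℕ} (D : Data G f) {g : G} {q r s : ℕ} (hq : q ∈ five)
    (hr : r ∈ five) (hs : s ∈ five) (hqr : q ≠ r) (hqs : q ≠ s) (hrs : r ≠ s)
    (h1 : q ∣ orderOf g) (h2 : r ∣ orderOf g) (h3 : s ∣ orderOf g) : False := by
  classical
  haveI := Fact.mk (prime_five hq)
  have hdiv : ∀ t ∈ five, q ≠ t → t ∣ orderOf g → t ∣ (f q).2.1 := by
    intro t ht hne hdt
    haveI := Fact.mk (prime_five ht)
    have h := dvd_of_commute_prime (D.sylow q hq) (D.cent q hq) (x := g ^ (orderOf g / q))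
      (y := g ^ (orderOf g / t)) (orderOf_pow_orderOf_div (orderOf_pos g).ne' h1)
      (orderOf_pow_orderOf_div (orderOf_pos g).ne' hdt) (Commute.pow_pow_self g _ _)
    exact ((Nat.coprime_primes (prime_five ht) (prime_five hq)).2 hne.symm).dvd_of_dvd_mul_left h
  have hc := D.check
  rw [countOk, Bool.and_eq_true, noTriple, List.all_eq_true] at hc
  have hle := hc.1 (q, f q) (List.mem_map.2 ⟨q, hq, rfl⟩)
  rw [decide_eq_true_eq] at hle
  have hmem : ∀ t ∈ five, q ≠ t → t ∣ orderOf g →
      (t, f t) ∈ (five.map fun q => (q, f q)).filter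
        fun b => b.1 != q && (f q).2.1 % b.1 == 0 := by
    intro t ht hne hdt
    rw [List.mem_filter]
    refine ⟨List.mem_map.2 ⟨t, ht, rfl⟩, ?_⟩
    simpa [hne.symm] using Nat.mod_eq_zero_of_dvd (hdiv t ht hne hdt)
  have hsub : ({(r, f r), (s, f s)} : Finset (ℕ × ℕ × ℕ × ℕ)) ⊆
      ((five.map fun q => (q, f q)).filter
        fun b => b.1 != q && (f q).2.1 % b.1 == 0).toFinset := by
    intro z hz
    rw [List.mem_toFinset]
    simp only [Finset.mem_insert, Finset.mem_singleton] at hz
    rcases hz with rfl | rfl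
    · exact hmem r hr hqr h2
    · exact hmem s hs hqs h3
  have := (Finset.card_le_card hsub).trans (List.toFinset_card_le _)
  rw [Finset.card_pair (fun h => hrs (congrArg Prod.fst h))] at this
  exact absurd (this.trans hle) (by norm_num)

open Classical in
theorem ncard_eq_sum [Fintype G] (p : G → Prop) :
    {g : G | p g}.ncard = ∑ g : G, if p g then 1 else 0 := by
  rw [Set.ncard_eq_toFinset_card' , Finset.sum_boole, Nat.cast_id]
  congr 1
  ext g
  simp

/-- Inclusion and exclusion over the five primes. -/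
theorem element_count {f : ℕ → ℕ × ℕ × ℕ} (D : Data G f) :
    ({g : G | ∀ q ∈ five, ¬ q ∣ orderOf g}).ncard +
      ({g : G | 19 ∣ orderOf g}.ncard + ({g : G | 11 ∣ orderOf g}.ncard +
        ({g : G | 7 ∣ orderOf g}.ncard + ({g : G | 5 ∣ orderOf g}.ncard +
          {g : G | 3 ∣ orderOf g}.ncard)))) =
    Nat.card G +
      (({g : G | 19 ∣ orderOf g ∧ 11 ∣ orderOf g}.ncard +
        ({g : G | 19 ∣ orderOf g ∧ 7 ∣ orderOf g}.ncard +
          ({g : G | 19 ∣ orderOf g ∧ 5 ∣ orderOf g}.ncard +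
            {g : G | 19 ∣ orderOf g ∧ 3 ∣ orderOf g}.ncard))) +
      (({g : G | 11 ∣ orderOf g ∧ 7 ∣ orderOf g}.ncard +
        ({g : G | 11 ∣ orderOf g ∧ 5 ∣ orderOf g}.ncard +
          {g : G | 11 ∣ orderOf g ∧ 3 ∣ orderOf g}.ncard)) +
      (({g : G | 7 ∣ orderOf g ∧ 5 ∣ orderOf g}.ncard +
          {g : G | 7 ∣ orderOf g ∧ 3 ∣ orderOf g}.ncard) +
        {g : G | 5 ∣ orderOf g ∧ 3 ∣ orderOf g}.ncard))) := by
  classical
  haveI : Fintype G := Fintype.ofFinite G
  simp only [ncard_eq_sum]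
  rw [Nat.card_eq_fintype_card, ← Finset.card_univ, Finset.card_eq_sum_ones]
  simp only [← Finset.sum_add_distrib]
  refine Finset.sum_congr rfl fun g _ => ?_
  have H : ∀ q r s : ℕ, q ∈ five → r ∈ five → s ∈ five → q ≠ r → q ≠ s → r ≠ s →
      q ∣ orderOf g → r ∣ orderOf g → s ∣ orderOf g → False :=
    fun q r s hq hr hs a b c h1 h2 h3 => no_triple D hq hr hs a b c h1 h2 h3
  have h1 := H 19 11 7; have h2 := H 19 11 5; have h3 := H 19 11 3; have h4 := H 19 7 5
  have h5 := H 19 7 3; have h6 := H 19 5 3; have h7 := H 11 7 5; have h8 := H 11 7 3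
  have h9 := H 11 5 3; have h10 := H 7 5 3
  simp [five] at h1 h2 h3 h4 h5 h6 h7 h8 h9 h10 ⊢
  by_cases a : 19 ∣ orderOf g <;> by_cases b : 11 ∣ orderOf g <;> by_cases c : 7 ∣ orderOf g <;>
    by_cases d : 5 ∣ orderOf g <;> by_cases e : 3 ∣ orderOf g <;> simp_all

theorem card_mul_set {f : ℕ → ℕ × ℕ × ℕ} (D : Data G f) {q : ℕ} (hq : q ∈ five) :
    {g : G | q ∣ orderOf g}.ncard = (f q).1 * ((q - 1) * (f q).2.1) := by
  haveI := Fact.mk (prime_five hq)
  obtain ⟨P⟩ : Nonempty (Sylow q G) := inferInstance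
  have h := card_dvd_orderOf (D.sylow q hq) (D.cent q hq) (D.coprime q hq) P (fun _ => True)
    (fun _ _ => Iff.rfl) (fun _ _ _ _ _ _ => Iff.rfl)
  simp only [and_true, D.num q hq, card_prime_to (D.sylow q hq) (D.cent q hq) (D.coprime q hq) P] at h
  exact h

/-- The elements counted by an overlap. -/
theorem card_pair_set {f : ℕ → ℕ × ℕ × ℕ} (D : Data G f) {q s : ℕ} (hq : q ∈ five) (hs : s ∈ five)
    (hne : s ≠ q) [Fact q.Prime] (P : Sylow q G) :
    {g : G | q ∣ orderOf g ∧ s ∣ orderOf g}.ncard = (f q).1 * ((q - 1) *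
      {k : G | k ∈ centralizer ((P : Subgroup G) : Set G) ∧ ¬ q ∣ orderOf k ∧
        s ∣ orderOf k}.ncard) := by
  haveI := Fact.mk (prime_five hs)
  rw [← D.num q hq]
  refine card_dvd_orderOf (D.sylow q hq) (D.cent q hq) (D.coprime q hq) P (fun g => s ∣ orderOf g)
    (fun g a => by show s ∣ orderOf (MulAut.conj a g) ↔ _; rw [MulEquiv.orderOf_eq]) ?_
  intro Q x hx k hk hnk
  obtain ⟨K, hK, hKC, hdec⟩ := exists_decomp (D.sylow q hq) (D.cent q hq) (D.coprime q hq) Q
  obtain ⟨y, hy, l, hl, rfl⟩ := hdec k hk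
  have hy1 : y = 1 := not_not.1 fun h => hnk
    ((not_dvd_iff (D.sylow q hq) (D.coprime q hq) hK hKC hy hl).1.2 h)
  rw [hy1, one_mul]
  exact (not_dvd_iff (D.sylow q hq) (D.coprime q hq) hK hKC hx hl).2 s (prime_five hs) hne

theorem pair_mem_overlaps {f : ℕ → ℕ × ℕ × ℕ} (D : Data G f) {q s : ℕ} (hq : q ∈ five)
    (hs : s ∈ five) (hne : s ≠ q) :
    {g : G | q ∣ orderOf g ∧ s ∣ orderOf g}.ncard ∈ overlaps q (f q) s := by
  haveI := Fact.mk (prime_five hq)
  haveI := Fact.mk (prime_five hs)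
  obtain ⟨P⟩ : Nonempty (Sylow q G) := inferInstance
  rw [card_pair_set D hq hs hne P]
  set X := {k : G | k ∈ centralizer ((P : Subgroup G) : Set G) ∧ ¬ q ∣ orderOf k ∧ s ∣ orderOf k}
  unfold overlaps
  by_cases hd : s ∣ (f q).2.1
  · rw [if_pos (by simpa using Nat.mod_eq_zero_of_dvd hd)]
    refine List.mem_map.2 ⟨X.ncard, List.mem_range'_1.2 ⟨?_, ?_⟩, by ring⟩
    · obtain ⟨y, hy⟩ := exists_prime_orderOf_dvd_card'
        (G := ↥(centralizer ((P : Subgroup G) : Set G))) s (D.cent q hq P ▸ hd.mul_left q)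
      refine (Set.ncard_pos (Set.toFinite X)).2 ⟨(y : G), y.2, ?_, ?_⟩
      · rw [orderOf_coe, hy]
        exact fun h => hne ((Nat.prime_dvd_prime_iff_eq (prime_five hq) (prime_five hs)).1 h).symm
      · rw [orderOf_coe, hy]
    · have hsub : X ⊂ {k : G | k ∈ centralizer ((P : Subgroup G) : Set G) ∧ ¬ q ∣ orderOf k} := by
        have hss : X ⊆ {k : G | k ∈ centralizer ((P : Subgroup G) : Set G) ∧ ¬ q ∣ orderOf k} :=
          fun k hk => ⟨hk.1, hk.2.1⟩
        rw [Set.ssubset_iff_of_subset hss]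
        refine ⟨1, ⟨one_mem _, ?_⟩, ?_⟩
        · rw [orderOf_one]; exact (prime_five hq).not_dvd_one
        · rintro ⟨-, -, h⟩
          rw [orderOf_one] at h
          exact (prime_five hs).not_dvd_one h
      have h := Set.ncard_lt_ncard hsub (Set.toFinite _)
      rw [card_prime_to (D.sylow q hq) (D.cent q hq) (D.coprime q hq) P] at h
      omega
  · rw [if_neg (by simpa using fun h => hd (Nat.dvd_of_mod_eq_zero h))]
    have hX : X = ∅ := by
      rw [Set.eq_empty_iff_forall_notMem]
      rintro k ⟨hk, hnk, hsk⟩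
      obtain ⟨x, hx⟩ := exists_prime_orderOf_dvd_card' (G := ↥(P : Subgroup G)) q
        (D.sylow q hq P).symm.dvd
      have h := dvd_of_commute_prime (D.sylow q hq) (D.cent q hq) (x := (x : G))
        (y := k ^ (orderOf k / s)) (by rw [orderOf_coe]; exact hx)
        (orderOf_pow_orderOf_div (orderOf_pos k).ne' hsk)
        ((show Commute (x : G) k from hk _ x.2).pow_right _)
      exact hd (((Nat.coprime_primes (prime_five hs) (prime_five hq)).2 hne).dvd_of_dvd_mul_left h)
    simp [hX]

/-- An odd prime divides the centralizer of an involution exactly when its own centralizer has even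
order. -/
theorem dvd_involution_centralizer_iff (hd : Nat.card G = 175560) {f : ℕ → ℕ × ℕ × ℕ}
    (D : Data G f) {t : G} (ht : orderOf t = 2) {q : ℕ} (hq : q ∈ five) :
    q ∣ Nat.card (centralizer ({t} : Set G)) ↔ 2 ∣ (f q).2.1 := by
  haveI := Fact.mk (prime_five hq)
  have hq2 : Nat.Coprime 2 q := (Nat.coprime_primes Nat.prime_two (prime_five hq)).2 (fun h => by
    subst h; revert hq; decide)
  constructor
  · intro h
    obtain ⟨x, hx⟩ := exists_prime_orderOf_dvd_card' (G := centralizer ({t} : Set G)) q h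
    have h' := dvd_of_commute_prime (D.sylow q hq) (D.cent q hq) (x := (x : G)) (y := t)
      (by rw [orderOf_coe]; exact hx) ht (mem_centralizer_singleton_iff.1 x.2)
    exact hq2.dvd_of_dvd_mul_left h'
  · intro h
    obtain ⟨P⟩ : Nonempty (Sylow q G) := inferInstance
    obtain ⟨u, hu⟩ := exists_prime_orderOf_dvd_card'
      (G := ↥(centralizer ((P : Subgroup G) : Set G))) 2 (D.cent q hq P ▸ h.mul_left q)
    have hu' : orderOf (u : G) = 2 := by rw [orderOf_coe]; exact hu
    obtain ⟨g, hg⟩ := isConj_iff.1 (isConj_involutions hd hu' ht)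
    have hPu : (P : Subgroup G) ≤ centralizer ({(u : G)} : Set G) := fun x hx =>
      mem_centralizer_singleton_iff.2 (u.2 x hx)
    have h1 : q ∣ Nat.card (centralizer ({(u : G)} : Set G)) := by
      have := card_dvd_of_le hPu
      rwa [D.sylow q hq P] at this
    haveI : Fintype G := Fintype.ofFinite G
    have h2 := Exceptional.card_centralizer_conj (u : G) g⁻¹
    rw [inv_inv, hg] at h2
    rwa [h2]

theorem prod_ite_dvd {l : List ℕ} (a b : ℕ → Bool) (h : ∀ q ∈ l, a q = true → b q = true) :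
    (l.map fun q => if a q then q else 1).prod ∣ (l.map fun q => if b q then q else 1).prod := by
  induction l with
  | nil => simp
  | cons q l ih =>
    simp only [List.map_cons, List.prod_cons]
    refine Nat.mul_dvd_mul ?_ (ih fun r hr => h r (List.mem_cons_of_mem _ hr))
    cases ha : a q
    · simp
    · simp [h q List.mem_cons_self ha]

/-- The order of an involution centralizer. -/
theorem card_centralizer_involution (hd : Nat.card G = 175560) {f : ℕ → ℕ × ℕ × ℕ} (D : Data G f)
    {t : G} (ht : orderOf t = 2) :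
    Nat.card (centralizer ({t} : Set G)) = 8 * oddPart (five.map fun q => (q, f q)) := by
  classical
  haveI : Fintype G := Fintype.ofFinite G
  obtain ⟨S⟩ : Nonempty (Sylow 2 G) := inferInstance
  set m := Nat.card (centralizer ({t} : Set G)) with hm
  have h8 : 8 ∣ m := by
    have : Nontrivial ↥(S : Subgroup G) := Finite.one_lt_card_iff_nontrivial.1
      (by rw [card_sylow_two hd S]; norm_num)
    have hpos : 2 ∣ Nat.card (center ↥(S : Subgroup G)) := by
      obtain ⟨k, hk, hk'⟩ := IsPGroup.card_center_eq_prime_pow (p := 2) (n := 3)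
        (G := ↥(S : Subgroup G)) (by rw [card_sylow_two hd S]; norm_num) (by norm_num)
      rw [hk']; exact dvd_pow_self 2 hk.ne'
    obtain ⟨z, hz⟩ := exists_prime_orderOf_dvd_card' (G := center ↥(S : Subgroup G)) 2 hpos
    have hz' : orderOf ((z : ↥(S : Subgroup G)) : G) = 2 := by rw [orderOf_coe, orderOf_coe]; exact hz
    obtain ⟨g, hg⟩ := isConj_iff.1 (isConj_involutions hd hz' ht)
    have hle : (S : Subgroup G) ≤ centralizer ({((z : ↥(S : Subgroup G)) : G)} : Set G) :=
      fun x hx => mem_centralizer_singleton_iff.2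
        (congrArg Subtype.val (mem_center_iff.1 z.2 ⟨x, hx⟩))
    have h2 := Exceptional.card_centralizer_conj ((z : ↥(S : Subgroup G)) : G) g⁻¹
    rw [inv_inv, hg] at h2
    rw [hm, h2, ← card_sylow_two hd S]
    exact card_dvd_of_le hle
  have hall := List.all_eq_true.1 two_part_list m
    (mem_divL_of_dvd (hd ▸ card_subgroup_dvd_card _))
  simp only [Bool.and_eq_true, Bool.or_eq_true, Bool.not_eq_true', beq_eq_false_iff_ne,
    beq_iff_eq] at hall
  rw [hall.1.1.resolve_left (by simp [Nat.mod_eq_zero_of_dvd h8]), oddPart, List.map_map]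
  congr 1
  refine congrArg List.prod (List.map_congr_left fun q hq => ?_)
  have hiff := dvd_involution_centralizer_iff hd D ht hq
  rw [← hm, Nat.dvd_iff_mod_eq_zero, Nat.dvd_iff_mod_eq_zero] at hiff
  simp only [Function.comp, beq_iff_eq]
  split_ifs <;> tauto

/-- The number of elements of order four. -/
theorem exists_four_count (hd : Nat.card G = 175560) {f : ℕ → ℕ × ℕ × ℕ} (D : Data G f) :
    ∃ k < 4 * fourPart (five.map fun q => (q, f q)),
      {g : G | orderOf g = 4}.ncard = 43890 / fourPart (five.map fun q => (q, f q)) * k := by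
  classical
  haveI : Fintype G := Fintype.ofFinite G
  set F := fourPart (five.map fun q => (q, f q)) with hF
  have hFd : F ∣ 21945 := by
    rw [hF, fourPart, List.map_map]
    have := prod_ite_dvd (l := five) (fun q => (f q).2.1 % 4 == 0) (fun _ => true) (by simp)
    simpa [five, Function.comp] using this
  have hF0 : 0 < F := Nat.pos_of_dvd_of_pos hFd (by norm_num)
  have hFd' : F ∣ 43890 := hFd.trans (by norm_num)
  have hsize : ∀ x : G, orderOf x = 4 → 43890 / F ∣ (conjugatesOf x).ncard := by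
    intro x hx
    set m := Nat.card (centralizer ({x} : Set G)) with hm
    have h4 : 4 ∣ m := four_dvd_centralizer hx
    have h8 : ¬ 8 ∣ m := not_eight_dvd_centralizer hd hx
    have hall := List.all_eq_true.1 two_part_list m
      (mem_divL_of_dvd (hd ▸ card_subgroup_dvd_card _))
    simp only [Bool.and_eq_true, Bool.or_eq_true, Bool.not_eq_true', beq_eq_false_iff_ne,
      beq_iff_eq, Bool.and_eq_false_iff] at hall
    have hmeq := hall.1.2.resolve_left (by
      simp [Nat.mod_eq_zero_of_dvd h4]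
      exact fun h => h8 (Nat.dvd_of_mod_eq_zero h))
    have hmF : m ∣ 4 * F := by
      rw [hmeq, hF, fourPart, List.map_map]
      refine Nat.mul_dvd_mul_left 4 ?_
      have key := prod_ite_dvd (l := five) (fun q => m % q == 0) (fun q => (f q).2.1 % 4 == 0)
        fun q hq hqm => ?_
      · simpa [Function.comp_def] using key
      haveI := Fact.mk (prime_five hq)
      obtain ⟨y, hy⟩ := exists_prime_orderOf_dvd_card' (G := centralizer ({x} : Set G)) q
        (Nat.dvd_of_mod_eq_zero (beq_iff_eq.1 hqm))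
      have h' := dvd_of_commute_prime (D.sylow q hq) (D.cent q hq) (x := (y : G)) (y := x)
        (by rw [orderOf_coe]; exact hy) hx (mem_centralizer_singleton_iff.1 y.2)
      have hq4 : Nat.Coprime 4 q := by
        revert hq; simp only [five, List.mem_cons, List.not_mem_nil, or_false]
        rintro (rfl | rfl | rfl | rfl | rfl) <;> norm_num
      simpa using Nat.mod_eq_zero_of_dvd (hq4.dvd_of_dvd_mul_left h')
    have htot := ClassSize.card_centralizer_mul_ncard_conjugatesOf x
    rw [hd, ← hm] at htot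
    obtain ⟨j, hj⟩ := hmF
    refine ⟨j, ?_⟩
    have hmj : 4 * F * (43890 / F) = 175560 := by
      rw [mul_assoc, Nat.mul_div_cancel' hFd']
      all_goals norm_num
    refine Nat.eq_of_mul_eq_mul_left (show 0 < m from Nat.card_pos) ?_
    rw [htot, ← hmj, hj]
    ring
  have hdvd : 43890 / F ∣ {g : G | orderOf g = 4}.ncard := by
    rw [Set.ncard_eq_toFinset_card', Finset.card_eq_sum_card_image ConjClasses.mk]
    refine Finset.dvd_sum fun c hc => ?_
    obtain ⟨x, hx, rfl⟩ := Finset.mem_image.1 hc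
    rw [Set.mem_toFinset] at hx
    have heq : {a ∈ Set.toFinset {g : G | orderOf g = 4} | ConjClasses.mk a = ConjClasses.mk x} =
        (conjugatesOf x).toFinset := by
      ext a
      simp only [Finset.mem_filter, Set.mem_toFinset, Set.mem_ofPred_eq,
        ConjClasses.mk_eq_mk_iff_isConj]
      show orderOf a = 4 ∧ IsConj a x ↔ IsConj x a
      refine ⟨fun h => h.2.symm, fun h => ⟨?_, h.symm⟩⟩
      obtain ⟨c, hc⟩ := isConj_iff.1 h
      rw [← hc, ← MulAut.conj_apply, MulEquiv.orderOf_eq]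
      exact hx
    rw [heq, ← Set.ncard_eq_toFinset_card']
    exact hsize x hx
  obtain ⟨k, hk⟩ := hdvd
  refine ⟨k, ?_, hk⟩
  have hlt : {g : G | orderOf g = 4}.ncard < 175560 := by
    rw [← hd, ← Set.ncard_univ]
    refine Set.ncard_lt_ncard ⟨Set.subset_univ _, fun h => ?_⟩ (Set.toFinite _)
    have : orderOf (1 : G) = 4 := h (Set.mem_univ 1)
    simp at this
  rw [hk] at hlt
  by_contra hle
  rw [not_lt] at hle
  have := Nat.mul_le_mul_left (43890 / F) hle
  rw [show 43890 / F * (4 * F) = 4 * (F * (43890 / F)) by ring, Nat.mul_div_cancel' hFd'] at this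
  omega

/-- The elements of order prime to 21945. -/
theorem two_elements (hd : Nat.card G = 175560) :
    {g : G | ∀ q ∈ five, ¬ q ∣ orderOf g}.ncard =
      1 + {g : G | orderOf g = 2}.ncard + {g : G | orderOf g = 4}.ncard := by
  classical
  have h8 : ∀ g : G, orderOf g ≠ 8 := by
    intro g hg
    obtain ⟨R, hR⟩ := (IsPGroup.of_card (p := 2) (n := 3) (by rw [Nat.card_zpowers, hg]; norm_num) :
      IsPGroup 2 ↥(zpowers g)).exists_le_sylow
    refine SmallGroups.not_isCyclic_sylow_two (not_comm hd) (by rw [hd]; norm_num) R ?_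
    rw [← eq_of_le_of_card_ge hR (by rw [card_sylow_two hd R, Nat.card_zpowers, hg])]
    infer_instance
  have hset : {g : G | ∀ q ∈ five, ¬ q ∣ orderOf g} =
      ({1} ∪ {g : G | orderOf g = 2}) ∪ {g : G | orderOf g = 4} := by
    ext g
    simp only [Set.mem_union, Set.mem_singleton_iff, Set.mem_ofPred_eq]
    constructor
    · intro h
      have hall := List.all_eq_true.1 two_part_list _ (mem_divL_of_dvd (hd ▸ orderOf_dvd_natCard g))
      simp only [Bool.and_eq_true, Bool.or_eq_true, List.any_eq_true, beq_iff_eq] at hall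
      have h' := hall.2.resolve_left fun ⟨q, hq, hq0⟩ => h q hq (Nat.dvd_of_mod_eq_zero hq0)
      simp at h'
      rcases h' with h' | h' | h' | h'
      · exact Or.inl (Or.inl (orderOf_eq_one_iff.1 (by simpa using h')))
      · exact Or.inl (Or.inr h')
      · exact Or.inr h'
      · exact absurd h' (h8 g)
    · rintro ((rfl | h) | h) q hq <;>
        simp only [five, List.mem_cons, List.not_mem_nil, or_false] at hq
      · rcases hq with rfl | rfl | rfl | rfl | rfl <;> simp
      · rw [h]; rcases hq with rfl | rfl | rfl | rfl | rfl <;> norm_num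
      · rw [h]; rcases hq with rfl | rfl | rfl | rfl | rfl <;> norm_num
  rw [hset, Set.ncard_union_eq, Set.ncard_union_eq, Set.ncard_singleton]
  · exact Set.disjoint_singleton_left.2 (by simp)
  · rw [Set.disjoint_left]
    rintro a (rfl | (ha : orderOf a = 2)) (hb : orderOf _ = 4)
    · simp at hb
    · omega

/-- The data of `J₁`. -/
theorem forced (hd : Nat.card G = 175560) {f : ℕ → ℕ × ℕ × ℕ} (D : Data G f) {t : G}
    (ht : orderOf t = 2) :
    Nat.card (centralizer ({t} : Set G)) = 120 ∧ (∀ g : G, orderOf g ≠ 4) ∧ (f 5).2.1 = 6 ∧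
      (f 5).1 = 2926 ∧ {g : G | 5 ∣ orderOf g ∧ 3 ∣ orderOf g}.ncard = 23408 := by
  classical
  set cfg := five.map fun q => (q, f q) with hcfg
  have hct : Nat.card (centralizer ({t} : Set G)) = 8 * oddPart cfg :=
    card_centralizer_involution hd D ht
  have hinv : {g : G | orderOf g = 2}.ncard = 21945 / oddPart cfg := by
    have hset : {g : G | orderOf g = 2} = conjugatesOf t := by
      ext g
      simp only [Set.mem_ofPred_eq, conjugatesOf]
      refine ⟨fun h => isConj_involutions hd ht h, fun h => ?_⟩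
      obtain ⟨c, hc⟩ := isConj_iff.1 h
      rw [← hc, ← MulAut.conj_apply, MulEquiv.orderOf_eq, ht]
    have htot := ClassSize.card_centralizer_mul_ncard_conjugatesOf t
    rw [hd, hct, ← hset] at htot
    have hpos : 0 < oddPart cfg := Nat.pos_of_ne_zero fun h => by
      rw [h, mul_zero, zero_mul] at htot; norm_num at htot
    exact (Nat.div_eq_of_eq_mul_left hpos (by linarith)).symm
  obtain ⟨k, hk, hfour⟩ := exists_four_count hd D
  have hchk := D.check
  rw [← hcfg, countOk, Bool.and_eq_true, List.all_eq_true] at hchk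
  have hk' := List.all_eq_true.1 (hchk.2 k (List.mem_range.2 hk))
  have m19 : (19 : ℕ) ∈ five := by decide
  have m11 : (11 : ℕ) ∈ five := by decide
  have m7 : (7 : ℕ) ∈ five := by decide
  have m5 : (5 : ℕ) ∈ five := by decide
  have m3 : (3 : ℕ) ∈ five := by decide
  have hcount := element_count D
  rw [two_elements hd, hinv, hfour, hd, ← hcfg] at hcount
  set I : ℕ → ℕ → ℕ := fun q s => {g : G | q ∣ orderOf g ∧ s ∣ orderOf g}.ncard with hI
  have hI' : ∀ q s, {g : G | q ∣ orderOf g ∧ s ∣ orderOf g}.ncard = I q s := fun _ _ => rfl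
  simp only [hI', card_mul_set D m19, card_mul_set D m11, card_mul_set D m7, card_mul_set D m5,
    card_mul_set D m3] at hcount
  have hmem : (I 19 11 + (I 19 7 + (I 19 5 + (I 19 3 + 0)))) + ((I 11 7 + (I 11 5 + (I 11 3 + 0))) +
      ((I 7 5 + (I 7 3 + 0)) + ((I 5 3 + 0) + (0 + 0)))) ∈ overlapSums cfg := by
    simp only [hcfg, five, List.map_cons, List.map_nil, overlapSums, List.foldr_cons, List.foldr_nil]
    repeat' apply mem_sumset
    all_goals first
      | exact List.mem_singleton_self 0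
      | exact pair_mem_overlaps D (by assumption) (by assumption) (by decide)
  have h := hk' _ hmem
  simp only [Bool.or_eq_true, Bool.and_eq_true, bne_iff_ne, ne_eq, beq_iff_eq] at h
  rcases h with h | ⟨hj, hk0⟩
  · refine absurd ?_ h
    have hsum : (cfg.map fun a => a.2.1 * ((a.1 - 1) * a.2.2.1)).sum =
        (f 19).1 * ((19 - 1) * (f 19).2.1) + ((f 11).1 * ((11 - 1) * (f 11).2.1) +
          ((f 7).1 * ((7 - 1) * (f 7).2.1) + ((f 5).1 * ((5 - 1) * (f 5).2.1) +
            (f 3).1 * ((3 - 1) * (f 3).2.1)))) := by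
      simp [hcfg, five]
    rw [hsum]
    linarith
  have hf : f 19 = (1540, 1, 6) ∧ f 11 = (1596, 1, 10) ∧ f 7 = (4180, 1, 6) ∧
      f 5 = (2926, 6, 2) ∧ f 3 = (2926, 10, 2) := by
    simpa [hcfg, five, jConfig] using hj
  obtain ⟨h19, h11, h7, h5, h3⟩ := hf
  have hodd : oddPart cfg = 15 := by rw [hj]; decide
  have hfp : fourPart cfg = 1 := by rw [hj]; decide
  refine ⟨by rw [hct, hodd], fun g hg => ?_, by rw [h5], by rw [h5], ?_⟩
  · rw [hk0, mul_zero] at hfour
    have : g ∈ {g : G | orderOf g = 4} := hg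
    rw [(Set.ncard_eq_zero (Set.toFinite _)).1 hfour] at this
    exact this.elim
  · have hz : ∀ q s : ℕ, q ∈ five → s ∈ five → s ≠ q → ¬ s ∣ (f q).2.1 → I q s = 0 := by
      intro q s hq hs hne hnd
      have := pair_mem_overlaps D hq hs hne
      rw [overlaps, if_neg (by simpa using fun h => hnd (Nat.dvd_of_mod_eq_zero h))] at this
      simpa using this
    rw [hodd, hfp, hk0, h19, h11, h7, h5, h3, hz 19 11 m19 m11 (by decide) (by rw [h19]; decide),
      hz 19 7 m19 m7 (by decide) (by rw [h19]; decide),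
      hz 19 5 m19 m5 (by decide) (by rw [h19]; decide),
      hz 19 3 m19 m3 (by decide) (by rw [h19]; decide),
      hz 11 7 m11 m7 (by decide) (by rw [h11]; decide),
      hz 11 5 m11 m5 (by decide) (by rw [h11]; decide),
      hz 11 3 m11 m3 (by decide) (by rw [h11]; decide),
      hz 7 5 m7 m5 (by decide) (by rw [h7]; decide),
      hz 7 3 m7 m3 (by decide) (by rw [h7]; decide)] at hcount
    show I 5 3 = 23408
    norm_num at hcount
    omega

end Cfsg.Agent.Order175560
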