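import Cfsg.Agent.Order175560.Check
import Cfsg.Agent.SmallGroups.PrimeSylow
import Cfsg.Agent.Coprime.Action

/-! A group of order 175560 is simple or has a normal Sylow 19-subgroup. -/

set_option autoImplicit false
set_option linter.style.haveILetI false

open Subgroup

namespace Cfsg.Agent.Order175560

universe u

theorem mem_divL_of_dvd {m : ℕ} (h : m ∣ 175560) : m ∈ divL := by
  have h' : m ∣ 8 * 3 * 5 * 7 * 11 * 19 := h
  obtain ⟨y5, a6, hy5, h6, rfl⟩ := Nat.dvd_mul.1 h'
  obtain ⟨y4, a5, hy4, h5, rfl⟩ := Nat.dvd_mul.1 hy5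
  obtain ⟨y3, a4, hy3, h4, rfl⟩ := Nat.dvd_mul.1 hy4
  obtain ⟨y2, a3, hy2, h3, rfl⟩ := Nat.dvd_mul.1 hy3
  obtain ⟨a1, a2, h1, h2, rfl⟩ := Nat.dvd_mul.1 hy2
  have key : ∀ a ∈ Nat.divisors 8, ∀ b ∈ Nat.divisors 3, ∀ c ∈ Nat.divisors 5,
      ∀ e ∈ Nat.divisors 7, ∀ f ∈ Nat.divisors 11, ∀ g ∈ Nat.divisors 19,
      a * b * c * e * f * g ∈ divL := by
    decide +kernel
  exact key _ (Nat.mem_divisors.2 ⟨h1, by norm_num⟩) _ (Nat.mem_divisors.2 ⟨h2, by norm_num⟩)
    _ (Nat.mem_divisors.2 ⟨h3, by norm_num⟩) _ (Nat.mem_divisors.2 ⟨h4, by norm_num⟩)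
    _ (Nat.mem_divisors.2 ⟨h5, by norm_num⟩) _ (Nat.mem_divisors.2 ⟨h6, by norm_num⟩)

theorem prime_of_mem_oddPrimes {d q : ℕ} (h : q ∈ oddPrimes d) :
    q.Prime ∧ q ∣ d ∧ ¬ q * q ∣ 175560 := by
  rw [oddPrimes, List.mem_filter] at h
  obtain ⟨h1, h2⟩ := h
  refine ⟨?_, Nat.dvd_of_mod_eq_zero (by simpa using h2), ?_⟩
  all_goals simp only [List.mem_cons, List.not_mem_nil, or_false] at h1
  all_goals rcases h1 with rfl | rfl | rfl | rfl | rfl <;> norm_num

theorem search_sound (d : ℕ) (f : ℕ → ℕ × ℕ × ℕ)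
    (hopt : ∀ q ∈ oddPrimes d, f q ∈ opts d q)
    (hcompat : ∀ q ∈ oddPrimes d, ∀ r ∈ oddPrimes d, q ≠ r → compat (q, f q) (r, f r) = true)
    (htot : ∀ S : List ℕ, S.Nodup → (∀ q ∈ S, q ∈ oddPrimes d) →
      (∀ q ∈ S, ∀ r ∈ S, q ≠ r → ¬ r ∣ (f q).2.1) →
        (S.map fun q => (f q).1 * ((q - 1) * (f q).2.1)).sum < d) :
    ∀ qs done : List ℕ, (∀ q ∈ qs ++ done, q ∈ oddPrimes d) → (qs ++ done).Nodup →
      search d qs (done.map fun q => (q, f q)) = false := by
  intro qs
  induction qs with
  | nil => intro done _ _; rfl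
  | cons q qs ih =>
    intro done hmem hnd
    rw [search, List.all_eq_false]
    refine ⟨f q, hopt q (hmem q (by simp)), ?_⟩
    rw [Bool.not_eq_true, Bool.or_eq_false_iff]
    constructor
    · rw [bad, Bool.or_eq_false_iff, List.any_eq_false, List.any_eq_false]
      constructor
      · intro b hb
        obtain ⟨r, hr, rfl⟩ := List.mem_map.1 hb
        rw [hcompat q (hmem q (by simp)) r (hmem r (by simp [hr])) ?_]
        · decide
        · rintro rfl
          rw [List.cons_append, List.nodup_cons] at hnd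
          exact hnd.1 (by simp [hr])
      · intro S hS
        rw [List.mem_sublists, List.sublist_map_iff] at hS
        obtain ⟨S', hS', rfl⟩ := hS
        rw [Bool.and_eq_true, decide_eq_true_eq, not_and]
        intro hi
        rw [not_le]
        have hnd' : (q :: S').Nodup := by
          refine List.Nodup.sublist ?_ hnd
          exact List.Sublist.cons_cons q (hS'.trans (List.sublist_append_right _ _))
        have := htot (q :: S') hnd' (fun r hr => by
            rcases List.mem_cons.1 hr with rfl | hr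
            · exact hmem _ (by simp)
            · exact hmem r (by simp [hS'.subset hr])) ?_
        · simpa [List.map_map, Function.comp_def] using this
        intro a ha b hb hab hdvd
        rw [indep, List.all_eq_true] at hi
        have h2 := hi (a, f a) (by
          rcases List.mem_cons.1 ha with rfl | ha
          · simp
          · exact List.mem_cons_of_mem _ (List.mem_map_of_mem ha))
        rw [List.all_eq_true] at h2
        have h3 := h2 (b, f b) (by
          rcases List.mem_cons.1 hb with rfl | hb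
          · simp
          · exact List.mem_cons_of_mem _ (List.mem_map_of_mem hb))
        simp only [Bool.or_eq_true, beq_iff_eq, bne_iff_ne, ne_eq] at h3
        exact h3.elim hab (fun h => h (Nat.mod_eq_zero_of_dvd hdvd))
    · have h1 : ∀ r ∈ qs ++ q :: done, r ∈ oddPrimes d := by
        intro r hr
        refine hmem r ?_
        simp only [List.mem_append, List.mem_cons] at hr ⊢
        tauto
      have h2 : (qs ++ q :: done).Nodup :=
        (List.perm_middle).nodup_iff.2 (by simpa using hnd)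
      exact ih (q :: done) h1 h2

section
variable {G : Type u} [Group G] [Finite G]

open Cfsg.Agent.SmallGroups

theorem one_mod_eq {n r : ℕ} [hr : Fact r.Prime] (h : n ≡ 1 [MOD r]) : n % r = 1 :=
  Eq.trans h (Nat.one_mod_eq_one.2 hr.out.one_lt.ne')

/-- Counting commuting pairs of prime orders. -/
theorem exists_pair_count {q r c : ℕ} [hq : Fact q.Prime] [hr : Fact r.Prime]
    (hd : Nat.card G ∣ 175560) (hr2 : ¬ r * r ∣ 175560)
    (hP : ∀ P : Sylow q G, Nat.card ↥(P : Subgroup G) = q)
    (hC : ∀ P : Sylow q G, Nat.card ↥(centralizer ((P : Subgroup G) : Set G)) = q * c)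
    (hrc : r ∣ c) :
    ∃ i, i ∣ q * c / r ∧ i % r = 1 ∧
      Nat.card {p : G × G // orderOf p.1 = q ∧ orderOf p.2 = r ∧ Commute p.1 p.2} =
        Nat.card (Sylow q G) * (q - 1) * (i * (r - 1)) := by
  classical
  obtain ⟨P₀⟩ : Nonempty (Sylow q G) := inferInstance
  set C := centralizer ((P₀ : Subgroup G) : Set G) with hCdef
  have hrC : r ∣ q * c := hrc.mul_left q
  have hCc : Nat.card C = r ^ 1 * (q * c / r) := by
    rw [pow_one, Nat.mul_div_cancel' hrC, hC]
  have hndvd : ¬ r ∣ q * c / r := by
    intro h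
    refine hr2 ((Nat.mul_dvd_mul_left r h).trans ?_)
    rw [Nat.mul_div_cancel' hrC, ← hC P₀]
    exact (card_subgroup_dvd_card C).trans hd
  refine ⟨Nat.card (Sylow r C), card_sylow_dvd hCc, one_mod_eq (card_sylow_modEq_one r C), ?_⟩
  have hK : Nat.card {y : C // orderOf y = r} = Nat.card (Sylow r C) * (r - 1) :=
    card_orderOf_eq_prime fun R => (card_sylow_subgroup hCc hndvd R).trans (pow_one r)
  have hfib : ∀ x : {x : G // orderOf x = q},
      Nat.card {y : G // orderOf y = r ∧ Commute x.1 y} = Nat.card {y : C // orderOf y = r} := by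
    rintro ⟨x, hx⟩
    obtain ⟨P, hP'⟩ := (IsPGroup.of_card (p := q) (n := 1)
      (by rw [Nat.card_zpowers, hx, pow_one]) : IsPGroup q ↥(zpowers x)).exists_le_sylow
    obtain ⟨g, hg⟩ := MulAction.exists_smul_eq G P₀ P
    have hmem : g⁻¹ * x * g ∈ (P₀ : Subgroup G) := by
      have h := hP' (mem_zpowers x)
      rw [← hg] at h
      obtain ⟨z, hz, hzx⟩ := h
      have hzx' : g * z * g⁻¹ = x := hzx
      rw [← hzx', show g⁻¹ * (g * z * g⁻¹) * g = z by group]; exact hz
    have hgen : (P₀ : Subgroup G) = zpowers (g⁻¹ * x * g) := by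
      refine (eq_of_le_of_card_ge (zpowers_le.2 hmem) ?_).symm
      rw [hP P₀, Nat.card_zpowers,
        show g⁻¹ * x * g = (MulAut.conj g⁻¹).toMonoidHom x by simp,
        orderOf_injective _ (MulAut.conj g⁻¹).injective, hx]
    have hCx : ∀ y : G, y ∈ C ↔ Commute (g⁻¹ * x * g) y := by
      intro y
      rw [hCdef, mem_centralizer_iff]
      constructor
      · intro h; exact h _ hmem
      · intro h z hz
        rw [SetLike.mem_coe, hgen, mem_zpowers_iff] at hz
        obtain ⟨i, rfl⟩ := hz
        exact (h.zpow_left i).eq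
    refine Nat.card_congr
      { toFun := fun y => ⟨⟨g⁻¹ * y.1 * g, (hCx _).2 ?_⟩, ?_⟩
        invFun := fun y => ⟨g * (y.1 : G) * g⁻¹, ?_, ?_⟩
        left_inv := fun y => Subtype.ext (by show g * (g⁻¹ * y.1 * g) * g⁻¹ = y.1; group)
        right_inv := fun y => Subtype.ext (Subtype.ext
          (by show g⁻¹ * (g * (y.1 : G) * g⁻¹) * g = (y.1 : G); group)) }
    · have := y.2.2.map (MulAut.conj g⁻¹).toMonoidHom
      simpa using this
    · refine ((Subgroup.orderOf_mk _ _).trans ?_).trans y.2.1
      have h := (MulAut.conj g⁻¹).orderOf_eq y.1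
      simpa using h
    · rw [show g * (y.1 : G) * g⁻¹ = (MulAut.conj g).toMonoidHom (y.1 : G) by simp,
        orderOf_injective _ (MulAut.conj g).injective, Subgroup.orderOf_coe]
      exact y.2
    · have h := ((hCx _).1 y.1.2).map (MulAut.conj g).toMonoidHom
      have h' : Commute (g * (g⁻¹ * x * g) * g⁻¹) (g * (y.1 : G) * g⁻¹) := h
      rwa [show g * (g⁻¹ * x * g) * g⁻¹ = x by group] at h'
  haveI : Fintype {x : G // orderOf x = q} := Fintype.ofFinite _
  let e : {p : G × G // orderOf p.1 = q ∧ orderOf p.2 = r ∧ Commute p.1 p.2} ≃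
      Σ x : {x : G // orderOf x = q}, {y : G // orderOf y = r ∧ Commute x.1 y} :=
    { toFun := fun p => ⟨⟨p.1.1, p.2.1⟩, ⟨p.1.2, p.2.2⟩⟩
      invFun := fun s => ⟨(s.1.1, s.2.1), s.1.2, s.2.2⟩
      left_inv := fun _ => rfl
      right_inv := fun _ => rfl }
  rw [Nat.card_congr e, Nat.card_sigma, Finset.sum_congr rfl (fun x _ => hfib x),
    Finset.sum_const, Finset.card_univ, smul_eq_mul, hK, ← Nat.card_eq_fintype_card,
    card_orderOf_eq_prime hP]

/-- Twenty Sylow 19-subgroups: self-centralizing and odd automizer. -/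
theorem twenty [IsSimpleGroup G] (hG : ¬ IsMulCommutative G) {c k : ℕ}
    (h20 : Nat.card (Sylow 19 G) = 20) (hc19 : ¬ 19 ∣ c)
    (hP : ∀ P : Sylow 19 G, Nat.card ↥(P : Subgroup G) = 19)
    (hC : ∀ P : Sylow 19 G, Nat.card ↥(centralizer ((P : Subgroup G) : Set G)) = 19 * c)
    (hN : ∀ P : Sylow 19 G, Nat.card ↥(normalizer ((P : Subgroup G) : Set G)) = 19 * (k * c))
    [Fact (Nat.Prime 19)] :
    c = 1 ∧ k % 2 = 1 := by
  classical
  haveI : Fintype (Sylow 19 G) := Fintype.ofFinite _
  let φ : G →* Equiv.Perm (Sylow 19 G) := MulAction.toPermHom G (Sylow 19 G)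
  have hinj : Function.Injective φ := by
    rcases injective_or_trivial φ with h | h
    · exact h
    · exfalso
      obtain ⟨P⟩ : Nonempty (Sylow 19 G) := inferInstance
      have hsub : Subsingleton (Sylow 19 G) := ⟨fun a b => by
        obtain ⟨g, rfl⟩ := MulAction.exists_smul_eq G a b
        exact (Equiv.Perm.congr_fun (h g) a).symm⟩
      rw [Nat.card_of_subsingleton P] at h20
      omega
  have hsign : ∀ g, Equiv.Perm.sign (φ g) = 1 := by
    rcases injective_or_trivial (Equiv.Perm.sign.comp φ) with h | h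
    · exact absurd ⟨⟨fun a b => h (by simp [mul_comm])⟩⟩ hG
    · exact h
  obtain ⟨P⟩ : Nonempty (Sylow 19 G) := inferInstance
  obtain ⟨g, hg⟩ := (isCyclic_of_prime_card (p := 19) (hP P)).exists_generator
  have hgne : g ≠ 1 := by
    rintro rfl
    haveI : Subsingleton ↥(P : Subgroup G) := ⟨fun a b => by
      have h1 := hg a; have h2 := hg b
      simp only [zpowers_one_eq_bot, mem_bot] at h1 h2
      rw [h1, h2]⟩
    have := hP P
    rw [Nat.card_of_subsingleton (1 : ↥(P : Subgroup G))] at this
    omega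
  have hgG : orderOf (g : G) = 19 := by
    rw [orderOf_coe]
    exact ((Nat.dvd_prime (by norm_num)).1 ((orderOf_dvd_natCard g).trans (hP P).dvd)).resolve_left
      (by simpa using hgne)
  have hgz : zpowers (g : G) = (P : Subgroup G) :=
    eq_of_le_of_card_ge (zpowers_le.2 g.2) (by rw [hP P, Nat.card_zpowers, hgG])
  -- a nontrivial element of P fixes only P
  have hfix : ∀ (x : G), x ∈ (P : Subgroup G) → x ≠ 1 → ∀ Q : Sylow 19 G, x • Q = Q → Q = P := by
    intro x hx hx1 Q hQ
    have hxN : x ∈ normalizer ((Q : Subgroup G) : Set G) := Sylow.smul_eq_iff_mem_normalizer.1 hQ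
    have hxo : orderOf x = 19 :=
      ((Nat.dvd_prime (by norm_num)).1 ((orderOf_dvd_natCard _ hx).trans (hP P).dvd)).resolve_left
        (by simpa using hx1)
    have hpg : IsPGroup 19 (zpowers x) :=
      IsPGroup.of_card (n := 1) (by rw [Nat.card_zpowers, hxo, pow_one])
    have h1 := Q.is_maximal' (hpg.to_sup_of_normal_right' Q.isPGroup' (zpowers_le.2 hxN)) le_sup_right
    have hxQ : x ∈ (Q : Subgroup G) := h1 ▸ mem_sup_left (mem_zpowers x)
    apply Sylow.ext
    rw [← eq_of_le_of_card_ge (zpowers_le.2 hxQ) (by rw [hP Q, Nat.card_zpowers, hxo]),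
      ← eq_of_le_of_card_ge (zpowers_le.2 hx) (by rw [hP P, Nat.card_zpowers, hxo])]
  have hgP : (g : G) • P = P := Sylow.smul_eq_iff_mem_normalizer.2 (le_normalizer g.2)
  -- orbit of g
  have horb : ∀ Q R : Sylow 19 G, Q ≠ P → R ≠ P → ∃ x ∈ (P : Subgroup G), x • Q = R := by
    intro Q R hQ hR
    let f : ↥(P : Subgroup G) → {S : Sylow 19 G // S ≠ P} := fun x =>
      ⟨(x : G) • Q, fun h => hQ (by
        have hx : (x : G) • P = P := Sylow.smul_eq_iff_mem_normalizer.2 (le_normalizer x.2)
        exact MulAction.injective (x : G) (h.trans hx.symm))⟩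
    have hf : Function.Injective f := by
      intro x y hxy
      have h : (x : G) • Q = (y : G) • Q := congrArg Subtype.val hxy
      by_contra hne
      refine hQ (hfix ((y : G)⁻¹ * x) (mul_mem (inv_mem y.2) x.2) ?_ Q ?_)
      · exact fun e => hne (Subtype.ext (inv_mul_eq_one.1 e).symm)
      · rw [mul_smul, h, inv_smul_smul]
    haveI : Fintype ↥(P : Subgroup G) := Fintype.ofFinite _
    have hbij : Function.Bijective f := (Fintype.bijective_iff_injective_and_card f).2 ⟨hf, by
      rw [Fintype.card_subtype_compl, Fintype.card_subtype_eq, ← Nat.card_eq_fintype_card,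
        ← Nat.card_eq_fintype_card, hP P, h20]⟩
    obtain ⟨x, hx⟩ := hbij.2 ⟨R, hR⟩
    exact ⟨x, x.2, congrArg Subtype.val hx⟩
  obtain ⟨Q, hQ⟩ : ∃ Q : Sylow 19 G, Q ≠ P := by
    by_contra hcon
    push Not at hcon
    haveI : Subsingleton (Sylow 19 G) := ⟨fun a b => (hcon a).trans (hcon b).symm⟩
    rw [Nat.card_of_subsingleton P] at h20
    omega
  have hnor : ∀ t : G, t ∈ normalizer ((P : Subgroup G) : Set G) → t • P = P := fun t ht =>
    Sylow.smul_eq_iff_mem_normalizer.2 ht
  have hc1 : c = 1 := by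
    by_contra hc1
    obtain ⟨s, hs, hsc⟩ := Nat.exists_prime_and_dvd hc1
    haveI := Fact.mk hs
    obtain ⟨t, ht⟩ := exists_prime_orderOf_dvd_card' (G := centralizer ((P : Subgroup G) : Set G)) s
      (hC P ▸ hsc.mul_left 19)
    have htN : (t : G) ∈ normalizer ((P : Subgroup G) : Set G) := centralizer_le_normalizer _ t.2
    have htQ : (t : G) • Q ≠ P := fun h => hQ (by
      exact MulAction.injective (t : G) (h.trans (hnor _ htN).symm))
    obtain ⟨x, hx, hxQ⟩ := horb Q ((t : G) • Q) hQ htQ
    have hcomm : ∀ z ∈ (P : Subgroup G), Commute z (t : G) := fun z hz => t.2 z hz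
    have htx : (t : G) = x := by
      apply hinj
      ext1 S
      show (t : G) • S = x • S
      by_cases hS : S = P
      · rw [hS, hnor _ htN, hnor _ (le_normalizer hx)]
      · obtain ⟨y, hy, rfl⟩ := horb Q S hQ hS
        have hyx : Commute y x := by
          rw [← hgz, mem_zpowers_iff] at hy hx
          obtain ⟨i, rfl⟩ := hy
          obtain ⟨j, rfl⟩ := hx
          exact Commute.zpow_zpow_self _ _ _
        rw [← mul_smul, ← (hcomm y hy).eq, mul_smul, ← hxQ, ← mul_smul, hyx.eq, mul_smul]
    have h19 : s ∣ 19 := by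
      have h := orderOf_dvd_natCard _ hx
      rw [hP P, ← htx, orderOf_coe, ht] at h
      exact h
    rcases (Nat.dvd_prime (by norm_num)).1 h19 with h | h
    · exact hs.one_lt.ne' h
    · exact hc19 (h ▸ hsc)
  refine ⟨hc1, ?_⟩
  · -- odd automizer
    by_contra hk
    have hk2 : 2 ∣ k := Nat.dvd_of_mod_eq_zero (by omega)
    obtain ⟨t, ht⟩ := exists_prime_orderOf_dvd_card' (G := normalizer ((P : Subgroup G) : Set G)) 2
      (hN P ▸ (hk2.mul_right c).mul_left 19)
    have ht2 : (t : G) * (t : G) = 1 := by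
      have h := pow_orderOf_eq_one t
      rw [ht, pow_two] at h
      exact congrArg Subtype.val h
    have htinv : (t : G)⁻¹ = (t : G) := inv_eq_of_mul_eq_one_left ht2
    have htC : ∀ x ∈ (P : Subgroup G), x ≠ 1 → ¬ Commute x (t : G) := by
      intro x hx hx1 hcom
      have hz : zpowers x = (P : Subgroup G) := by
        refine eq_of_le_of_card_ge (zpowers_le.2 hx) ?_
        rw [hP P, Nat.card_zpowers, ((Nat.dvd_prime (by norm_num)).1
          ((orderOf_dvd_natCard _ hx).trans (hP P).dvd)).resolve_left (by simpa using hx1)]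
      have htc : (t : G) ∈ centralizer ((P : Subgroup G) : Set G) := by
        intro z hz'
        rw [SetLike.mem_coe, ← hz, mem_zpowers_iff] at hz'
        obtain ⟨i, rfl⟩ := hz'
        exact (hcom.zpow_left i).eq
      have h1 := orderOf_dvd_natCard _ htc
      rw [hC P, orderOf_coe, ht] at h1
      rw [hc1] at h1
      omega
    have hinv : ∀ x ∈ (P : Subgroup G), (t : G) * x * (t : G) = x⁻¹ := by
      intro x hx
      have hx' : (t : G) * x * (t : G) ∈ (P : Subgroup G) := by
        have := (mem_normalizer_iff.1 t.2 x).1 hx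
        rwa [htinv] at this
      by_contra hne
      refine htC ((t : G) * x * (t : G) * x) (mul_mem hx' hx) (fun e => hne (eq_inv_of_mul_eq_one_left e)) ?_
      have hab : Commute ((t : G) * x * (t : G)) x := by
        obtain ⟨i, hi⟩ := mem_zpowers_iff.1 (hgz.ge hx')
        obtain ⟨j, hj⟩ := mem_zpowers_iff.1 (hgz.ge hx)
        rw [← hi, ← hj]
        exact Commute.zpow_zpow_self _ _ _
      show (t : G) * x * (t : G) * x * (t : G) = (t : G) * ((t : G) * x * (t : G) * x)
      calc (t : G) * x * (t : G) * x * (t : G)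
          = x * ((t : G) * x * (t : G)) * (t : G) := by rw [← hab.eq]
        _ = x * (t : G) * x * ((t : G) * (t : G)) := by group
        _ = ((t : G) * (t : G)) * (x * (t : G) * x) := by rw [ht2, mul_one, one_mul]
        _ = _ := by group
    set σ := φ (t : G) with hσdef
    have hσ2 : σ ^ 2 = 1 := by rw [pow_two, ← map_mul, ht2, map_one]
    have hσne : σ ≠ 1 := fun h => by
      have h' : (t : G) = 1 := hinj (by rw [← hσdef, h, map_one])
      rw [show t = 1 from Subtype.ext h', orderOf_one] at ht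
      omega
    have hcyc : ∀ m ∈ σ.cycleType, m = 2 := fun m hm => by
      have := (Equiv.Perm.dvd_of_mem_cycleType hm).trans (orderOf_dvd_of_pow_eq_one hσ2)
      have := Equiv.Perm.two_le_of_mem_cycleType hm
      have := Nat.le_of_dvd two_pos ‹m ∣ 2›
      omega
    have hrep := Multiset.eq_replicate_card.2 hcyc
    set n := σ.cycleType.card with hn
    have hsum : σ.support.card = 2 * n := by
      rw [← Equiv.Perm.sum_cycleType, hrep, Multiset.sum_replicate, smul_eq_mul, mul_comm]
    have hF : (Finset.univ \ σ.support).card ≤ 2 := by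
      by_contra hgt
      push Not at hgt
      have hPF : P ∈ Finset.univ \ σ.support := by
        simp only [Finset.mem_sdiff, Finset.mem_univ, Equiv.Perm.mem_support, true_and, not_not]
        exact hnor _ t.2
      obtain ⟨a, ha, b, hb, hab⟩ := Finset.one_lt_card.1
        (show 1 < ((Finset.univ \ σ.support).erase P).card by
          rw [Finset.card_erase_of_mem hPF]; omega)
      simp only [Finset.mem_erase, Finset.mem_sdiff, Finset.mem_univ, Equiv.Perm.mem_support,
        true_and, not_not] at ha hb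
      obtain ⟨x, hx, hxa⟩ := horb a b ha.1 hb.1
      have hta : (t : G) • a = a := ha.2
      have htb : (t : G) • b = b := hb.2
      have e : (x * x) • a = a := by
        have h1 : ((t : G) * x * (t : G)) • a = x • a := by
          rw [mul_smul, mul_smul, hta, hxa, htb]
        rw [hinv x hx] at h1
        rw [mul_smul, ← h1, smul_inv_smul]
      have hxx : x * x = 1 := by
        by_contra hne
        exact ha.1 (hfix _ (mul_mem hx hx) hne a e)
      have h19 := orderOf_dvd_natCard _ hx
      rw [hP P] at h19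
      have h2 : orderOf x ∣ 2 := orderOf_dvd_of_pow_eq_one (by rw [pow_two, hxx])
      have : x = 1 := orderOf_eq_one_iff.1 (Nat.eq_one_of_dvd_coprimes (by norm_num) h19 h2)
      rw [this, one_smul] at hxa
      exact hab hxa
    have hFP : 1 ≤ (Finset.univ \ σ.support).card := Finset.card_pos.2 ⟨P, by
      simp only [Finset.mem_sdiff, Finset.mem_univ, Equiv.Perm.mem_support, true_and, not_not]
      exact hnor _ t.2⟩
    rw [Finset.card_sdiff_of_subset (Finset.subset_univ _), Finset.card_univ,
      ← Nat.card_eq_fintype_card, h20, hsum] at hF hFP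
    have hn9 : n = 9 := by omega
    have := hsign (t : G)
    rw [← hσdef, Equiv.Perm.sign_of_cycleType, hrep, Multiset.sum_replicate, Multiset.card_replicate,
      hn9] at this
    exact absurd this (by decide)

/-- No non-commutative simple group has order a proper divisor of 175560 divisible by 19. -/
theorem not_simple [IsSimpleGroup G] (hd : Nat.card G ∣ 175560) (h19 : 19 ∣ Nat.card G)
    (hne19 : Nat.card G ≠ 19) (hnefull : Nat.card G ≠ 175560) : False := by
  classical
  set d := Nat.card G with hdd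
  have hG : ¬ IsMulCommutative G := not_isMulCommutative (fun hp =>
    hne19 ((Nat.prime_dvd_prime_iff_eq (by norm_num) hp).1 h19).symm)
  have data : ∀ q ∈ oddPrimes d, ∃ o : ℕ × ℕ × ℕ, ∀ [Fact q.Prime],
      Nat.card (Sylow q G) = o.1 ∧ 1 < o.1 ∧ o.1 % q = 1 ∧ 1 < o.2.2 ∧ o.2.2 ∣ q - 1 ∧
      o.1 * (o.2.2 * o.2.1) = d / q ∧
      (∀ P : Sylow q G, Nat.card ↥(P : Subgroup G) = q) ∧
      (∀ P : Sylow q G, Nat.card ↥(centralizer ((P : Subgroup G) : Set G)) = q * o.2.1) ∧
      (∀ P : Sylow q G,
        Nat.card ↥(normalizer ((P : Subgroup G) : Set G)) = q * (o.2.2 * o.2.1)) := by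
    intro q hq
    obtain ⟨hqp, hqd, hq2⟩ := prime_of_mem_oddPrimes hq
    haveI := Fact.mk hqp
    have hm : d = q * (d / q) := (Nat.mul_div_cancel' hqd).symm
    have hndvd : ¬ q ∣ d / q := fun h =>
      hq2 ((Nat.mul_dvd_mul_left q h).trans (hm ▸ hd))
    obtain ⟨n, k, c, h1, h2, h3, h4, h5, h6, h7⟩ := exists_primeSylow_data hG (hdd ▸ hm) hndvd
    rw [Finset.mem_filter, Nat.mem_divisors] at h2 h3
    exact ⟨(n, c, k), fun {_} => ⟨h1, h2.2.2, h2.2.1, h3.2, h3.1.1, h4, h5, h6, h7⟩⟩
  choose! f hf using data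
  have hcsh : ∀ q ∈ oddPrimes d, ∀ r ∈ oddPrimes d, q ≠ r → r ∣ (f q).2.1 →
      q ∣ (f r).2.1 := by
    intro q hq r hr hne hdiv
    haveI := Fact.mk (prime_of_mem_oddPrimes hq).1
    haveI := Fact.mk (prime_of_mem_oddPrimes hr).1
    obtain ⟨-, -, -, -, -, -, hPq, hCq, -⟩ := hf q hq
    obtain ⟨-, -, -, -, -, -, hPr, hCr, -⟩ := hf r hr
    obtain ⟨P⟩ : Nonempty (Sylow q G) := inferInstance
    obtain ⟨x, hx⟩ := exists_prime_orderOf_dvd_card' (G := ↥(P : Subgroup G)) q (hPq P).symm.dvd
    obtain ⟨y, hy⟩ := exists_prime_orderOf_dvd_card'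
      (G := ↥(centralizer ((P : Subgroup G) : Set G))) r (hCq P ▸ hdiv.mul_left q)
    have hcom : Commute (y : G) (x : G) := (y.2 _ x.2).symm
    have h := dvd_of_commute_prime hPr hCr (x := (y : G)) (y := (x : G)) (s := q)
      (by rw [orderOf_coe]; exact hy) (by rw [orderOf_coe]; exact hx) hcom
    exact ((Nat.coprime_primes (Fact.out : q.Prime) (Fact.out : r.Prime)).2 hne).dvd_of_dvd_mul_left h
  have hopt : ∀ q ∈ oddPrimes d, f q ∈ opts d q := by
    intro q hq
    obtain ⟨hqp, hqd, hq2⟩ := prime_of_mem_oddPrimes hq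
    haveI := Fact.mk hqp
    obtain ⟨h1, h2, h3, h4, h5, h6, hP, hC, hN⟩ := hf q hq
    have hdq : d / q ∣ 175560 := (Nat.div_dvd_of_dvd hqd).trans hd
    have hn : (f q).1 ∣ d / q := Dvd.intro _ h6
    have hdiv : d / q / (f q).1 = (f q).2.2 * (f q).2.1 := by
      rw [← h6, Nat.mul_div_cancel_left _ (by omega)]
    have he : (f q).2.2 ∣ d / q / (f q).1 := hdiv ▸ Dvd.intro _ rfl
    rw [opts, List.mem_flatMap]
    refine ⟨(f q).1, List.mem_filter.2 ⟨mem_divL_of_dvd (hn.trans hdq), ?_⟩,
      List.mem_filter.2 ⟨List.mem_map.2 ⟨(f q).2.2, List.mem_filter.2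
        ⟨mem_divL_of_dvd (he.trans ((Nat.div_dvd_of_dvd hn).trans hdq)), ?_⟩, ?_⟩, ?_⟩⟩
    · simp only [Bool.and_eq_true, beq_iff_eq, decide_eq_true_eq]
      exact ⟨⟨Nat.mod_eq_zero_of_dvd hn, h3⟩, h2⟩
    · simp only [Bool.and_eq_true, beq_iff_eq, decide_eq_true_eq]
      exact ⟨⟨h4, Nat.mod_eq_zero_of_dvd h5⟩, Nat.mod_eq_zero_of_dvd he⟩
    · rw [hdiv, Nat.mul_div_cancel_left _ (by omega)]
    · by_cases hsp : q = 19 ∧ (f q).1 = 20
      · obtain ⟨rfl, h20⟩ := hsp
        have hc19 : ¬ 19 ∣ (f 19).2.1 := fun h => hq2 (by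
          obtain ⟨P⟩ : Nonempty (Sylow 19 G) := inferInstance
          exact ((Nat.mul_dvd_mul_left 19 h).trans ((hC P).symm.dvd.trans
            (card_subgroup_dvd_card _))).trans hd)
        obtain ⟨hc1, hk1⟩ := twenty hG (h1.trans h20) hc19 hP hC hN
        simp [hc1, hk1]
      · simp only [Bool.not_eq_true', Bool.and_eq_false_iff, beq_eq_false_iff_ne]
        left
        tauto
  have hcompat : ∀ q ∈ oddPrimes d, ∀ r ∈ oddPrimes d, q ≠ r →
      compat (q, f q) (r, f r) = true := by
    intro q hq r hr hne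
    haveI := Fact.mk (prime_of_mem_oddPrimes hq).1
    haveI := Fact.mk (prime_of_mem_oddPrimes hr).1
    obtain ⟨h1, -, -, -, -, -, hPq, hCq, -⟩ := hf q hq
    obtain ⟨h1', -, -, -, -, -, hPr, hCr, -⟩ := hf r hr
    unfold compat
    by_cases hd' : r ∣ (f q).2.1
    · have hd'' := hcsh q hq r hr hne hd'
      rw [if_pos (by simpa using Nat.mod_eq_zero_of_dvd hd')]
      obtain ⟨i, hi, hi1, hci⟩ :=
        exists_pair_count hd (prime_of_mem_oddPrimes hr).2.2 hPq hCq hd'
      obtain ⟨j, hj, hj1, hcj⟩ :=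
        exists_pair_count hd (prime_of_mem_oddPrimes hq).2.2 hPr hCr hd''
      have hswap : Nat.card {p : G × G // orderOf p.1 = q ∧ orderOf p.2 = r ∧ Commute p.1 p.2} =
          Nat.card {p : G × G // orderOf p.1 = r ∧ orderOf p.2 = q ∧ Commute p.1 p.2} :=
        Nat.card_congr ((Equiv.prodComm G G).subtypeEquiv fun p =>
          ⟨fun h => ⟨h.2.1, h.1, h.2.2.symm⟩, fun h => ⟨h.2.1, h.1, h.2.2.symm⟩⟩)
      rw [hci, hcj, h1, h1'] at hswap
      have heq : (f q).1 * i = (f r).1 * j := by
        have hq1 : 0 < q - 1 := by have := (Fact.out : q.Prime).two_le; omega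
        have hr1 : 0 < r - 1 := by have := (Fact.out : r.Prime).two_le; omega
        refine Nat.eq_of_mul_eq_mul_right (Nat.mul_pos hq1 hr1) ?_
        calc (f q).1 * i * ((q - 1) * (r - 1)) = (f q).1 * (q - 1) * (i * (r - 1)) := by ring
          _ = _ := hswap
          _ = _ := by ring
      have hdvdC : ∀ (s t : ℕ) [Fact s.Prime], s ∈ oddPrimes d → t ∣ s * (f s).2.1 → ∀ i,
          i ∣ s * (f s).2.1 / t → i ∣ 175560 := by
        intro s t _ hs ht i hi
        obtain ⟨-, -, -, -, -, -, -, hCs, -⟩ := hf s hs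
        obtain ⟨P⟩ : Nonempty (Sylow s G) := inferInstance
        exact hi.trans ((Nat.div_dvd_of_dvd ht).trans
          ((hCs P).symm.dvd.trans ((card_subgroup_dvd_card _).trans hd)))
      simp only [Bool.and_eq_true, beq_iff_eq, List.any_eq_true]
      refine ⟨Nat.mod_eq_zero_of_dvd hd'', i, ?_, j, ?_, heq⟩
      · simp only [locs, List.mem_filter, Bool.and_eq_true, beq_iff_eq]
        exact ⟨mem_divL_of_dvd (hdvdC q r hq (hd'.mul_left q) i hi),
          Nat.mod_eq_zero_of_dvd hi, hi1⟩
      · simp only [locs, List.mem_filter, Bool.and_eq_true, beq_iff_eq]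
        exact ⟨mem_divL_of_dvd (hdvdC r q hr (hd''.mul_left r) j hj),
          Nat.mod_eq_zero_of_dvd hj, hj1⟩
    · rw [if_neg (by simpa using fun h => hd' (Nat.dvd_of_mod_eq_zero h))]
      simpa using fun h => hd' (hcsh r hr q hq hne.symm (Nat.dvd_of_mod_eq_zero h))
  have htot : ∀ S : List ℕ, S.Nodup → (∀ q ∈ S, q ∈ oddPrimes d) →
      (∀ q ∈ S, ∀ r ∈ S, q ≠ r → ¬ r ∣ (f q).2.1) →
        (S.map fun q => (f q).1 * ((q - 1) * (f q).2.1)).sum < d := by
    intro S hnd hS hind
    haveI : Fintype G := Fintype.ofFinite G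
    let T : ℕ → Finset G := fun q => Finset.univ.filter fun g => q ∣ orderOf g
    have hT : ∀ q ∈ S, (f q).1 * ((q - 1) * (f q).2.1) ≤ (T q).card := by
      intro q hq
      haveI := Fact.mk (prime_of_mem_oddPrimes (hS q hq)).1
      obtain ⟨h1, -, -, -, -, -, hP, hC, -⟩ := hf q (hS q hq)
      have h := card_dvd_orderOf_ge hP hC
      rw [h1] at h
      refine h.trans (le_of_eq ?_)
      rw [← Set.ncard_coe_finset]
      congr 1
      ext g
      simp [T]
    have hdisj : ∀ q ∈ S.toFinset, ∀ r ∈ S.toFinset, q ≠ r → Disjoint (T q) (T r) := by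
      intro q hq r hr hne
      rw [List.mem_toFinset] at hq hr
      rw [Finset.disjoint_left]
      intro g hgq hgr
      simp only [T, Finset.mem_filter, Finset.mem_univ, true_and] at hgq hgr
      haveI := Fact.mk (prime_of_mem_oddPrimes (hS q hq)).1
      haveI := Fact.mk (prime_of_mem_oddPrimes (hS r hr)).1
      obtain ⟨-, -, -, -, -, -, hP, hC, -⟩ := hf q (hS q hq)
      have h := dvd_of_commute_prime hP hC (x := g ^ (orderOf g / q)) (y := g ^ (orderOf g / r))
        (s := r) (orderOf_pow_orderOf_div (orderOf_pos g).ne' hgq)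
        (orderOf_pow_orderOf_div (orderOf_pos g).ne' hgr) (Commute.pow_pow_self g _ _)
      exact hind q hq r hr hne
        (((Nat.coprime_primes (Fact.out : r.Prime) (Fact.out : q.Prime)).2 hne.symm).dvd_of_dvd_mul_left h)
    calc (S.map fun q => (f q).1 * ((q - 1) * (f q).2.1)).sum
        ≤ (S.map fun q => (T q).card).sum := List.sum_le_sum hT
      _ = ∑ q ∈ S.toFinset, (T q).card := (List.sum_toFinset _ hnd).symm
      _ = (S.toFinset.biUnion T).card := (Finset.card_biUnion hdisj).symm
      _ < d := by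
        rw [hdd, Nat.card_eq_fintype_card, ← Finset.card_univ]
        refine Finset.card_lt_card (Finset.ssubset_iff_subset_ne.2 ⟨Finset.subset_univ _, ?_⟩)
        intro h
        have h1 := h.symm ▸ Finset.mem_univ (1 : G)
        simp only [Finset.mem_biUnion, List.mem_toFinset, T, Finset.mem_filter, Finset.mem_univ,
          true_and, orderOf_one, Nat.dvd_one] at h1
        obtain ⟨q, hq, hq1⟩ := h1
        exact (prime_of_mem_oddPrimes (hS q hq)).1.one_lt.ne' hq1
  have hsound := search_sound d f hopt hcompat htot (oddPrimes d) [] (by simp) (by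
    rw [List.append_nil]
    exact List.Nodup.filter _ (by decide))
  have hall := List.all_eq_true.1 all_excluded d (mem_divL_of_dvd hd)
  rw [List.map_nil] at hsound
  rw [hsound] at hall
  simp only [Bool.or_false, Bool.not_eq_true', Bool.and_eq_false_iff, beq_eq_false_iff_ne,
    bne_eq_false_iff_eq] at hall
  have := Nat.mod_eq_zero_of_dvd h19
  tauto

end

theorem conj_eq_self_of_small {G : Type*} [Group G] [Finite G] {g : G} {p : ℕ} (hp : p.Prime)
    (hg : g ^ p = 1) (R : Subgroup G) (hR : g ∈ normalizer (R : Set G)) (hlt : Nat.card R < p)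
    {x : G} (hx : x ∈ R) : g * x = x * g := by
  classical
  let φ := R.normalizerMonoidHom ⟨g, hR⟩
  haveI : Fintype R := Fintype.ofFinite R
  have h1 : φ ^ p = 1 := by
    rw [← map_pow, show (⟨g, hR⟩ : normalizer (R : Set G)) ^ p = 1 from Subtype.ext hg, map_one]
  let σ : Equiv.Perm R := MulAut.toPerm R φ
  have h2 : σ ^ p = 1 := by rw [← map_pow, h1, map_one]
  have h3 : σ = 1 := by
    by_contra hne
    haveI := Fact.mk hp
    have ho := orderOf_eq_prime h2 hne
    have hdvd : p ∣ (Fintype.card R).factorial := by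
      rw [← ho, ← Fintype.card_perm]; exact orderOf_dvd_card
    rw [hp.dvd_factorial, ← Nat.card_eq_fintype_card] at hdvd
    omega
  have h4 : g * x * g⁻¹ = x := congrArg Subtype.val (Equiv.Perm.congr_fun h3 ⟨x, hx⟩)
  exact mul_inv_eq_iff_eq_mul.1 h4

theorem small_sylow {m s k : ℕ} (hm : m ∣ 175560) (h19 : ¬ 19 ∣ m) (hs : s.Prime)
    (hmk : m = s ^ k) : m ≤ 11 := by
  have h := List.all_eq_true.1 small_prime_power m (mem_divL_of_dvd hm)
  simp only [Bool.or_eq_true, beq_iff_eq, decide_eq_true_eq, List.any_eq_true,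
    Bool.and_eq_true, bne_iff_ne] at h
  rcases h with (h | h) | ⟨a, ha, b, hb, ⟨hab, h1⟩, h2⟩
  · exact absurd (Nat.dvd_of_mod_eq_zero h) h19
  · exact h
  · exfalso
    have key : ∀ a ∈ ([2, 3, 5, 7, 11] : List ℕ), a.Prime := by
      intro a ha
      simp only [List.mem_cons, List.not_mem_nil, or_false] at ha
      rcases ha with rfl | rfl | rfl | rfl | rfl <;> norm_num
    have e : ∀ a ∈ ([2, 3, 5, 7, 11] : List ℕ), m % a = 0 → a = s := by
      intro a ha h
      exact (Nat.prime_dvd_prime_iff_eq (key a ha) hs).1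
        ((key a ha).dvd_of_dvd_pow (hmk ▸ Nat.dvd_of_mod_eq_zero h))
    exact hab ((e a ha h1).trans (e b hb h2).symm)

open Cfsg.Agent.Coprime in
theorem sylow_normal [Fact (Nat.Prime 19)] : ∀ (n : ℕ) (G : Type u) [Group G] [Finite G],
    Nat.card G = n → n ∣ 175560 → 19 ∣ n → ¬ (IsSimpleGroup G ∧ n = 175560) →
    ∀ P : Sylow 19 G, (P : Subgroup G).Normal := by
  intro n
  induction n using Nat.strong_induction_on with
  | _ n ih =>
    intro G _ _ hn hd h19 hns P
    classical
    subst hn
    have hPc : ∀ Q : Sylow 19 G, Nat.card (Q : Subgroup G) = 19 := by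
      intro Q
      have h : Nat.card G = 19 ^ 1 * (Nat.card G / 19) := by
        rw [pow_one, Nat.mul_div_cancel' h19]
      refine (Cfsg.Agent.SmallGroups.card_sylow_subgroup h ?_ Q).trans (pow_one 19)
      intro h'
      have := (Nat.mul_dvd_mul_left 19 h').trans ((Nat.mul_div_cancel' h19).dvd.trans hd)
      norm_num at this
    have huniq : Subsingleton (Sylow 19 G) → (P : Subgroup G).Normal := fun h =>
      haveI := h; Sylow.normal_of_subsingleton P
    by_cases hs : IsSimpleGroup G
    · by_cases hc : Nat.card G = 19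
      · rw [eq_top_of_card_eq (P : Subgroup G) ((hPc P).trans hc.symm)]; infer_instance
      · exact (not_simple hd h19 hc (fun h => hns ⟨hs, h⟩)).elim
    haveI : Nontrivial G := by
      rw [← Finite.one_lt_card_iff_nontrivial]
      have := Nat.le_of_dvd Nat.card_pos h19
      omega
    obtain ⟨N, hN, hN1, hN2⟩ : ∃ N : Subgroup G, N.Normal ∧ N ≠ ⊥ ∧ N ≠ ⊤ := by
      by_contra hcon
      exact hs ⟨fun N hN => or_iff_not_imp_left.2 fun h => by
        by_contra h'; exact hcon ⟨N, hN, h, h'⟩⟩
    haveI := hN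
    have hlt : Nat.card N < Nat.card G :=
      lt_of_le_of_ne N.card_le_card_group fun h => hN2 (eq_top_of_card_eq N h)
    have hfull : ∀ m, m < Nat.card G → m ≠ 175560 := by
      intro m hm h
      have := Nat.le_of_dvd (by norm_num) hd
      omega
    by_cases h19N : 19 ∣ Nat.card N
    · -- all Sylow subgroups are in N
      obtain ⟨x, hx⟩ := exists_prime_orderOf_dvd_card' (G := N) 19 h19N
      have hle : ∀ Q : Sylow 19 G, (Q : Subgroup G) ≤ N := by
        intro Q
        obtain ⟨Q₀, hQ₀⟩ := (IsPGroup.of_card (p := 19) (n := 1)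
          (by rw [Nat.card_zpowers, orderOf_coe, hx, pow_one]) :
            IsPGroup 19 (zpowers (x : G))).exists_le_sylow
        have hQ₀N : (Q₀ : Subgroup G) ≤ N := by
          rw [← eq_of_le_of_card_ge hQ₀ (by rw [hPc, Nat.card_zpowers, orderOf_coe, hx])]
          exact zpowers_le.2 x.2
        obtain ⟨g, rfl⟩ := MulAction.exists_smul_eq G Q₀ Q
        rintro - ⟨z, hz, rfl⟩
        exact hN.conj_mem z (hQ₀N hz) g
      have hsub := ih _ hlt N rfl ((N.card_subgroup_dvd_card).trans hd) h19N
        (fun h => hfull _ hlt h.2) (P.subtype (hle P))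
      refine huniq ⟨fun A B => ?_⟩
      haveI : Subsingleton (Sylow 19 N) :=
        (Sylow.unique_of_normal (P.subtype (hle P)) hsub).instSubsingleton
      exact Sylow.subtype_injective (hP := hle A) (hQ := hle B) (Subsingleton.elim _ _)
    · -- 19 does not divide |N|
      have hq : Nat.card G = Nat.card (G ⧸ N) * Nat.card N :=
        card_eq_card_quotient_mul_card_subgroup N
      have hqlt : Nat.card (G ⧸ N) < Nat.card G := by
        rw [hq]; exact lt_mul_of_one_lt_right Nat.card_pos (N.one_lt_card_iff_ne_bot.2 hN1)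
      have h19q : 19 ∣ Nat.card (G ⧸ N) :=
        ((Nat.Prime.dvd_mul (by norm_num)).1 (hq ▸ h19)).resolve_right h19N
      have hbar := ih _ hqlt (G ⧸ N) rfl ((Dvd.intro _ hq.symm).trans hd) h19q
        (fun h => hfull _ hqlt h.2) (P.mapSurjective (QuotientGroup.mk'_surjective N))
      have hM : ((P : Subgroup G) ⊔ N).Normal := by
        have h : ((P : Subgroup G).map (QuotientGroup.mk' N)).comap (QuotientGroup.mk' N) =
            (P : Subgroup G) ⊔ N := by
          rw [comap_map_eq, QuotientGroup.ker_mk']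
        rw [← h]
        exact Subgroup.Normal.comap hbar _
      obtain ⟨g, hg⟩ := (isCyclic_of_prime_card (p := 19) (hPc P)).exists_generator
      have hg19 : (g : G) ^ 19 = 1 := by
        have h : g ^ Nat.card ↥(P : Subgroup G) = 1 := pow_card_eq_one'
        rw [hPc P] at h
        simpa using congrArg Subtype.val h
      have hcop : (Nat.card (P : Subgroup G)).Coprime (Nat.card N) := by
        rw [hPc P]; exact (Nat.Prime.coprime_iff_not_dvd (by norm_num)).2 h19N
      have hcentral : (⊤ : Subgroup N) ≤ (centralizer ({(g : G)} : Set G)).subgroupOf N := by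
        by_contra hne
        have hidx : ((centralizer ({(g : G)} : Set G)).subgroupOf N).index ≠ 1 := by
          rw [Ne, index_eq_one]
          exact fun h => hne h.ge
        obtain ⟨s, hs', hsd⟩ := Nat.exists_prime_and_dvd hidx
        haveI := Fact.mk hs'
        obtain ⟨R, hR⟩ := exists_invariant_sylow s (A := (P : Subgroup G)) (K := N)
          le_normalizer_of_normal hcop
          (Or.inl (by haveI := P.isPGroup'.isNilpotent; infer_instance))
        refine R.not_dvd_index (hsd.trans (index_dvd_of_le fun r hr => ?_))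
        obtain ⟨k, hk⟩ := IsPGroup.iff_card.1 (R.isPGroup'.map N.subtype)
        have hdvd : Nat.card ((R : Subgroup N).map N.subtype) ∣ Nat.card N :=
          card_dvd_of_le (map_subtype_le _)
        have hsmall := small_sylow (hdvd.trans (N.card_subgroup_dvd_card.trans hd))
          (fun h => h19N (h.trans hdvd)) hs' hk
        show (r : G) ∈ centralizer ({(g : G)} : Set G)
        rw [mem_centralizer_singleton_iff]
        exact (conj_eq_self_of_small (by norm_num) hg19 _ (hR g.2)
          (hsmall.trans_lt (by norm_num)) ⟨r, hr, rfl⟩).symm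
      have hNP : N ≤ normalizer ((P : Subgroup G) : Set G) := by
        refine le_trans (fun x hx => ?_) (centralizer_le_normalizer _)
        have h : x ∈ centralizer ({(g : G)} : Set G) := hcentral (mem_top ⟨x, hx⟩)
        rw [mem_centralizer_singleton_iff] at h
        intro z hz
        obtain ⟨i, hi⟩ := mem_zpowers_iff.1 (hg ⟨z, hz⟩)
        have hz' : (g : G) ^ i = z := by simpa using congrArg Subtype.val hi
        rw [← hz']
        exact (Commute.zpow_left (show Commute (g : G) x from h.symm) i).eq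
      refine huniq ⟨?_⟩
      suffices h : ∀ Q : Sylow 19 G, Q = P from fun A B => (h A).trans (h B).symm
      intro Q
      have hQM : (Q : Subgroup G) ≤ (P : Subgroup G) ⊔ N := by
        obtain ⟨c, rfl⟩ := MulAction.exists_smul_eq G P Q
        rintro - ⟨z, hz, rfl⟩
        exact hM.conj_mem z (mem_sup_left hz) c
      have hQN : (Q : Subgroup G) ≤ normalizer ((P : Subgroup G) : Set G) :=
        hQM.trans (sup_le le_normalizer hNP)
      exact Sylow.ext (le_antisymm
        (le_sup_left.trans_eq (P.is_maximal'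
          (Q.isPGroup'.to_sup_of_normal_right' P.isPGroup' hQN) le_sup_right))
        ((eq_of_le_of_card_ge (le_sup_left.trans_eq (P.is_maximal'
          (Q.isPGroup'.to_sup_of_normal_right' P.isPGroup' hQN) le_sup_right))
          (by rw [hPc, hPc])).ge))

end Cfsg.Agent.Order175560
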